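import Cfsg.Agent.LocalP.ThompsonJ
import Cfsg.Agent.LargeFischer85.Setup

/-!
Large Fischer type: a Sylow 2-subgroup of `C(z)` is one of `G`; if it has a unique elementary
abelian subgroup of order `2 ^ 11` of largest order, then this subgroup is the Thompson subgroup of
every Sylow 2-subgroup containing it and its normalizer controls fusion in it.
-/

set_option autoImplicit false

namespace CfsgLib.LargeFischer45

open Cfsg CfsgLib.LargeFischer85
open CfsgLib.LocalP (isElementaryAbelian_iff isElementaryAbelian_map isElementaryAbelian_mono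
  isElementaryAbelian_of_map isElementaryAbelian_sup isPGroup_of_isElementaryAbelian)

variable {G : Type*} [Group G] [Finite G]

/-- The unique largest elementary abelian subgroup of each Sylow 2-subgroup containing it. -/
structure Top (A : Subgroup G) : Prop where
  elem : IsElementaryAbelian 2 A
  card : Nat.card A = 2 ^ 11
  sylow : ∃ P : Sylow 2 G, A ≤ (P : Subgroup G) ∧ ∀ B : Subgroup G, B ≤ (P : Subgroup G) →
    IsElementaryAbelian 2 B → Nat.card B ≤ 2 ^ 11 ∧ (Nat.card B = 2 ^ 11 → B = A)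

theorem Top.conj {A : Subgroup G} (h : Top A) (g : G) :
    Top (A.map (MulAut.conj g).toMonoidHom) := by
  have hinj : Function.Injective (MulAut.conj g).toMonoidHom := (MulAut.conj g).injective
  obtain ⟨P, hAP, hP⟩ := h.sylow
  refine ⟨isElementaryAbelian_map _ h.elem,
    by rw [Subgroup.card_map_of_injective hinj, h.card],
    ⟨g • P, ?_, fun B hB he => ?_⟩⟩
  · rintro _ ⟨a, ha, rfl⟩
    exact ⟨a, hAP ha, rfl⟩
  · obtain ⟨C, hC, rfl⟩ : ∃ C, C ≤ (P : Subgroup G) ∧ C.map (MulAut.conj g).toMonoidHom = B := by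
      refine ⟨B.comap (MulAut.conj g).toMonoidHom, fun x hx => ?_,
        Subgroup.map_comap_eq_self_of_surjective (MulAut.conj g).surjective B⟩
      obtain ⟨y, hy, e⟩ := hB hx
      exact hinj e ▸ hy
    obtain ⟨h1, h2⟩ := hP C hC (isElementaryAbelian_of_map _ hinj he)
    rw [Subgroup.card_map_of_injective hinj]
    exact ⟨h1, fun e => by rw [h2 e]⟩

/-- Every Sylow 2-subgroup has one. -/
theorem Top.exists_of_sylow {A : Subgroup G} (h : Top A) (T : Sylow 2 G) :
    ∃ g : G, A.map (MulAut.conj g).toMonoidHom ≤ (T : Subgroup G) ∧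
      ∀ B : Subgroup G, B ≤ (T : Subgroup G) → IsElementaryAbelian 2 B →
        Nat.card B ≤ 2 ^ 11 ∧ (Nat.card B = 2 ^ 11 → B = A.map (MulAut.conj g).toMonoidHom) := by
  obtain ⟨P, hAP, hP⟩ := h.sylow
  obtain ⟨g, rfl⟩ := MulAction.exists_smul_eq G P T
  refine ⟨g, by rintro _ ⟨a, ha, rfl⟩; exact ⟨a, hAP ha, rfl⟩, fun B hB he => ?_⟩
  have hinj : Function.Injective (MulAut.conj g).toMonoidHom := (MulAut.conj g).injective
  obtain ⟨C, hC, rfl⟩ : ∃ C, C ≤ (P : Subgroup G) ∧ C.map (MulAut.conj g).toMonoidHom = B := by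
    refine ⟨B.comap (MulAut.conj g).toMonoidHom, fun x hx => ?_,
      Subgroup.map_comap_eq_self_of_surjective (MulAut.conj g).surjective B⟩
    obtain ⟨y, hy, e⟩ := hB hx
    exact hinj e ▸ hy
  obtain ⟨h1, h2⟩ := hP C hC (isElementaryAbelian_of_map _ hinj he)
  rw [Subgroup.card_map_of_injective hinj]
  exact ⟨h1, fun e => by rw [h2 e]⟩

theorem Top.unique {A : Subgroup G} (h : Top A) {T : Sylow 2 G} (hA : A ≤ (T : Subgroup G))
    {B : Subgroup G} (hB : B ≤ (T : Subgroup G)) (he : IsElementaryAbelian 2 B) :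
    Nat.card B ≤ 2 ^ 11 ∧ (Nat.card B = 2 ^ 11 → B = A) := by
  obtain ⟨g, -, hg⟩ := h.exists_of_sylow T
  rw [(hg A hA h.elem).2 h.card]
  exact hg B hB he

theorem Top.thompson_eq {A : Subgroup G} (h : Top A) {T : Sylow 2 G} (hA : A ≤ (T : Subgroup G)) :
    thompsonSubgroupOf 2 (T : Subgroup G) = A := by
  have hinj : Function.Injective (T : Subgroup G).subtype := Subgroup.subtype_injective _
  have key : maxElementaryAbelianSubgroups 2 ↥(T : Subgroup G) =
      {A.subgroupOf (T : Subgroup G)} := by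
    have hcard : Nat.card ↥(A.subgroupOf (T : Subgroup G)) = 2 ^ 11 := by
      rw [Nat.card_congr (Subgroup.subgroupOfEquivOfLe hA).toEquiv, h.card]
    have hel : IsElementaryAbelian 2 (A.subgroupOf (T : Subgroup G)) :=
      isElementaryAbelian_of_map _ hinj
        (by rw [Subgroup.map_subgroupOf_eq_of_le hA]; exact h.elem)
    refine Set.ext fun B => ?_
    rw [Set.mem_singleton_iff]
    constructor
    · rintro ⟨hB, hmax⟩
      obtain ⟨h1, h2⟩ := h.unique hA (Subgroup.map_subtype_le B) (isElementaryAbelian_map _ hB)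
      rw [Subgroup.card_map_of_injective hinj] at h1 h2
      have := h2 (le_antisymm h1 (hcard ▸ hmax _ hel))
      rw [← this, Subgroup.subgroupOf, Subgroup.comap_map_eq_self_of_injective hinj]
    · rintro rfl
      refine ⟨hel, fun B hB => ?_⟩
      have := (h.unique hA (Subgroup.map_subtype_le B) (isElementaryAbelian_map _ hB)).1
      rwa [Subgroup.card_map_of_injective hinj, ← hcard] at this
  rw [thompsonSubgroupOf, thompsonSubgroup, key, sSup_singleton,
    Subgroup.map_subgroupOf_eq_of_le hA]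

theorem Top.exists_thompson {A : Subgroup G} (h : Top A) (T : Sylow 2 G) :
    ∃ g : G, thompsonSubgroupOf 2 (T : Subgroup G) = A.map (MulAut.conj g).toMonoidHom := by
  obtain ⟨g, hg, -⟩ := h.exists_of_sylow T
  exact ⟨g, (h.conj g).thompson_eq hg⟩

/-- The normalizer controls fusion. -/
theorem Top.fusion {A : Subgroup G} (h : Top A) {a : G} (ha : a ∈ A) {g : G}
    (hga : g * a * g⁻¹ ∈ A) :
    ∃ m ∈ Subgroup.normalizer (A : Set G), m * a * m⁻¹ = g * a * g⁻¹ := by
  set b := g * a * g⁻¹ with hb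
  have hcomm := (isElementaryAbelian_iff.1 h.elem).1
  have hA : A ≤ Subgroup.centralizer ({b} : Set G) := fun x hx =>
    Subgroup.mem_centralizer_singleton_iff.2 (hcomm x hx b hga)
  set A' := A.map (MulAut.conj g).toMonoidHom with hA'
  have hA'le : A' ≤ Subgroup.centralizer ({b} : Set G) := by
    rintro _ ⟨x, hx, rfl⟩
    refine Subgroup.mem_centralizer_singleton_iff.2 ?_
    show g * x * g⁻¹ * b = b * (g * x * g⁻¹)
    have e := congrArg (fun y => g * y * g⁻¹) (hcomm a ha x hx)
    simpa only [hb, conj_mul] using e.symm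
  set C := Subgroup.centralizer ({b} : Set G)
  have hp : IsPGroup 2 ↥(A.subgroupOf C) :=
    (isPGroup_of_isElementaryAbelian h.elem).of_equiv (Subgroup.subgroupOfEquivOfLe hA).symm
  have hp' : IsPGroup 2 ↥(A'.subgroupOf C) :=
    (isPGroup_of_isElementaryAbelian (isElementaryAbelian_map _ h.elem)).of_equiv
      (Subgroup.subgroupOfEquivOfLe hA'le).symm
  obtain ⟨P₁, hP₁⟩ := hp.exists_le_sylow
  obtain ⟨P₂, hP₂⟩ := hp'.exists_le_sylow
  obtain ⟨c, rfl⟩ := MulAction.exists_smul_eq ↥C P₂ P₁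
  obtain ⟨T, hT⟩ := ((c • P₂).2.map C.subtype).exists_le_sylow
  have h1 : A ≤ (T : Subgroup G) := fun x hx => hT ⟨⟨x, hA hx⟩, hP₁ hx, rfl⟩
  have h2 : A'.map (MulAut.conj (c : G)).toMonoidHom ≤ (T : Subgroup G) := by
    rintro _ ⟨x, hx, rfl⟩
    exact hT ⟨MulAut.conj c ⟨x, hA'le hx⟩, ⟨⟨x, hA'le hx⟩, hP₂ hx, rfl⟩, rfl⟩
  have heq : A'.map (MulAut.conj (c : G)).toMonoidHom = A := by
    refine (h.unique h1 h2 (isElementaryAbelian_map _ (isElementaryAbelian_map _ h.elem))).2 ?_
    rw [Subgroup.card_map_of_injective (MulAut.conj (c : G)).injective,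
      Subgroup.card_map_of_injective (MulAut.conj g).injective, h.card]
  refine ⟨(c : G) * g, Subgroup.mem_normalizer_iff.2 fun x => ?_, ?_⟩
  · have he : ∀ y, y ∈ A → (c : G) * g * y * ((c : G) * g)⁻¹ ∈ A := by
      intro y hy
      exact heq ▸ ⟨g * y * g⁻¹, ⟨y, hy, rfl⟩, by simp [mul_assoc]⟩
    refine ⟨he x, fun hx => ?_⟩
    rw [← heq] at hx
    obtain ⟨_, ⟨y, hy, rfl⟩, e⟩ := hx
    have : x = y := by
      simp only [MulEquiv.coe_toMonoidHom, MulAut.conj_apply] at e
      have e' : (c : G) * g * x * ((c : G) * g)⁻¹ = (c : G) * g * y * ((c : G) * g)⁻¹ := by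
        rw [← e]; simp [mul_assoc]
      exact mul_left_cancel (mul_right_cancel e')
    exact this ▸ hy
  · have hc : (c : G) * b = b * (c : G) := Subgroup.mem_centralizer_singleton_iff.1 c.2
    calc (c : G) * g * a * ((c : G) * g)⁻¹ = (c : G) * b * (c : G)⁻¹ := by
          rw [hb]; simp [mul_assoc]
      _ = b := by rw [hc]; simp

variable {z : G} {Q : Subgroup (Subgroup.centralizer ({z} : Set G))} [Q.Normal]

theorem card_centralizer (hF : IsOfLargeFischerTypeAt z Q) :
    Nat.card ↥(Subgroup.centralizer ({z} : Set G)) = 2 ^ 13 * 19595520 := by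
  obtain ⟨Mb, Cb, _, _, hle, hC, hM, ⟨e⟩⟩ := exists_sections hF
  obtain ⟨⟨-, -, -, hQ, -⟩, -⟩ := id hF
  have h1 := Subgroup.card_eq_card_quotient_mul_card_subgroup Q
  have h2 := Mb.card_mul_index
  have h3 := Subgroup.card_eq_card_quotient_mul_card_subgroup (Cb.subgroupOf Mb)
  rw [Nat.card_congr e.toEquiv, CfsgLib.U43Mult.card_G9,
    Nat.card_congr (Subgroup.subgroupOfEquivOfLe hle).toEquiv, hC] at h3
  rw [hM, h3] at h2
  rw [h1, hQ, ← h2]
  norm_num

/-- A Sylow 2-subgroup of the centraliser is one of the group. -/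
theorem exists_sylow (hF : IsOfLargeFischerTypeAt z Q)
    (T : Sylow 2 ↥(Subgroup.centralizer ({z} : Set G))) :
    ∃ P : Sylow 2 G, (T : Subgroup _).map (Subgroup.centralizer ({z} : Set G)).subtype =
      (P : Subgroup G) := by
  have hS := setting hF
  set S := (T : Subgroup _).map (Subgroup.centralizer ({z} : Set G)).subtype with hSdef
  have hSp : IsPGroup 2 ↥S := T.2.map _
  obtain ⟨P, hP⟩ := hSp.exists_le_sylow
  refine ⟨P, le_antisymm hP ?_⟩
  have hQS : Q.map (Subgroup.centralizer ({z} : Set G)).subtype ≤ S := Subgroup.map_mono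
    (IsPGroup.le_sylow_of_normal (IsPGroup.iff_card.2 ⟨13, hF.1.2.2.2.1⟩) T)
  have hzH : ∀ y ∈ S, y * z = z * y := by
    rintro _ ⟨y, -, rfl⟩
    exact Subgroup.mem_centralizer_singleton_iff.1 y.2
  by_contra hne
  have hlt : S.subgroupOf (P : Subgroup G) < ⊤ := by
    rw [lt_top_iff_ne_top, ne_eq, Subgroup.subgroupOf_eq_top]; exact hne
  haveI := P.2.isNilpotent
  have hn := Group.normalizerCondition_of_isNilpotent (G := ↥(P : Subgroup G)) _ hlt
  obtain ⟨x, hxn, hxS⟩ := SetLike.exists_of_lt hn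
  have hxz : (x : G) * z * (x : G)⁻¹ ∈ Subgroup.centralizer (Q.map (Subgroup.centralizer ({z} : Set G)).subtype : Set G) := by
    refine Subgroup.mem_centralizer_iff.2 fun q hq => ?_
    have hqS : (x : G)⁻¹ * q * x ∈ S :=
      (Subgroup.mem_normalizer_iff''.1 hxn ⟨q, hP (hQS hq)⟩).1 (hQS hq)
    have e := congrArg (fun y => (x : G) * y * (x : G)⁻¹) (hzH _ hqS)
    simpa [mul_assoc] using e
  rw [hS.centralizer_eq, hS.mem_iff] at hxz
  rcases hxz with e | e
  · have hz1 : z = 1 := by simpa using e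
    have := hS.order
    rw [hz1, orderOf_one] at this
    norm_num at this
  · have hxH : (x : G) ∈ Subgroup.centralizer ({z} : Set G) := Subgroup.mem_centralizer_singleton_iff.2 (mul_inv_eq_iff_eq_mul.1 e)
    have hp : IsPGroup 2 ↥((P : Subgroup G).comap (Subgroup.centralizer ({z} : Set G)).subtype) :=
      P.2.comap_of_injective _ (Subgroup.subtype_injective _)
    have hTle : (T : Subgroup ↥(Subgroup.centralizer ({z} : Set G))) ≤ (P : Subgroup G).comap (Subgroup.centralizer ({z} : Set G)).subtype :=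
      fun y hy => hP ⟨y, hy, rfl⟩
    exact hxS (Subgroup.mem_subgroupOf.2
      ⟨⟨x, hxH⟩, (T.3 hp hTle).le (show _ ∈ (P : Subgroup G) from x.2), rfl⟩)

theorem card_sylow (hF : IsOfLargeFischerTypeAt z Q) (P : Sylow 2 G) :
    Nat.card ↥(P : Subgroup G) = 2 ^ 21 := by
  obtain ⟨T⟩ : Nonempty (Sylow 2 ↥(Subgroup.centralizer ({z} : Set G))) := inferInstance
  obtain ⟨P₀, hP₀⟩ := exists_sylow hF T
  rw [Sylow.card_eq_multiplicity P, ← Sylow.card_eq_multiplicity P₀, ← hP₀,
    Subgroup.card_map_of_injective (Subgroup.subtype_injective _), Sylow.card_eq_multiplicity T,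
    card_centralizer hF]
  congr 1
  rw [show 2 ^ 13 * 19595520 = 2 ^ 21 * 76545 by norm_num,
    Nat.factorization_mul (by norm_num) (by norm_num), Finsupp.add_apply,
    Nat.Prime.factorization_pow Nat.prime_two, Finsupp.single_eq_same,
    Nat.factorization_eq_zero_of_not_dvd (by norm_num : ¬ 2 ∣ 76545)]

/-- The conclusion of S5444 gives the subgroup. -/
theorem exists_top (hF : IsOfLargeFischerTypeAt z Q)
    (T : Sylow 2 ↥(Subgroup.centralizer ({z} : Set G)))
    (A₀ : Subgroup ↥(T : Subgroup (Subgroup.centralizer ({z} : Set G))))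
    (hmax : maxElementaryAbelianSubgroups 2 ↥(T : Subgroup (Subgroup.centralizer ({z} : Set G))) =
      {A₀}) (hcard : Nat.card A₀ = 2 ^ 11) :
    let A := (A₀.map (T : Subgroup _).subtype).map (Subgroup.centralizer ({z} : Set G)).subtype
    Top A ∧ z ∈ A ∧ A ≤ Subgroup.centralizer ({z} : Set G) := by
  intro A
  have hcA : Nat.card A = 2 ^ 11 := by
    rw [Subgroup.card_map_of_injective (Subgroup.subtype_injective _),
      Subgroup.card_map_of_injective (Subgroup.subtype_injective _), hcard]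
  obtain ⟨hel, hle⟩ : A₀ ∈ maxElementaryAbelianSubgroups 2 ↥(T : Subgroup ↥(Subgroup.centralizer ({z} : Set G))) := by rw [hmax]; rfl
  obtain ⟨P, hP⟩ := exists_sylow hF T
  let f : ↥(T : Subgroup ↥(Subgroup.centralizer ({z} : Set G))) →* G := (Subgroup.centralizer ({z} : Set G)).subtype.comp (T : Subgroup ↥(Subgroup.centralizer ({z} : Set G))).subtype
  have hf : Function.Injective f :=
    (Subgroup.subtype_injective _).comp (Subgroup.subtype_injective _)
  have hAf : A = A₀.map f := Subgroup.map_map _ _ _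
  have hTop : Top A := by
    refine ⟨isElementaryAbelian_map _ (isElementaryAbelian_map _ hel), hcA,
      ⟨P, hP ▸ Subgroup.map_mono (Subgroup.map_subtype_le _), fun B hB he => ?_⟩⟩
    have hBr : B ≤ f.range := by
      intro b hb
      have := hB hb
      rw [← hP] at this
      obtain ⟨c, hc, rfl⟩ := this
      exact ⟨⟨c, hc⟩, rfl⟩
    obtain ⟨C, rfl⟩ : ∃ C, C.map f = B := ⟨B.comap f, Subgroup.map_comap_eq_self hBr⟩
    have hC := isElementaryAbelian_of_map f hf he
    rw [Subgroup.card_map_of_injective hf, ← hcard]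
    refine ⟨hle C hC, fun e => ?_⟩
    have : C ∈ ({A₀} : Set _) := hmax ▸ ⟨hC, fun D hD => e ▸ hle D hD⟩
    rw [Set.mem_singleton_iff.1 this, hAf]
  refine ⟨hTop, ?_, Subgroup.map_subtype_le _⟩
  obtain ⟨P', hAP⟩ := (isPGroup_of_isElementaryAbelian hTop.elem).exists_le_sylow
  have hS := setting hF
  have hzc : ∀ a ∈ A, a * z = z * a := fun a ha =>
    Subgroup.mem_centralizer_singleton_iff.1 (Subgroup.map_subtype_le _ ha)
  have hz2 : z ^ 2 = 1 := hS.order ▸ pow_orderOf_eq_one z
  have hzel : IsElementaryAbelian 2 (Subgroup.zpowers z) := by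
    refine isElementaryAbelian_iff.2 ⟨fun x hx y hy => ?_, fun a ha => ?_⟩
    · obtain ⟨i, rfl⟩ := hx
      obtain ⟨j, rfl⟩ := hy
      exact (Commute.refl z).zpow_zpow i j
    · obtain ⟨i, rfl⟩ := ha
      change (z ^ i) ^ 2 = 1
      rw [← zpow_natCast, zpow_comm, zpow_natCast, hz2, one_zpow]
  have hzT : z ∈ (P : Subgroup G) := by
    rw [← hP]
    exact Subgroup.map_mono (IsPGroup.le_sylow_of_normal (IsPGroup.iff_card.2 ⟨13, hF.1.2.2.2.1⟩) T)
      hS.z_mem
  have hle' : A ⊔ Subgroup.zpowers z ≤ (P : Subgroup G) :=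
    sup_le (hP ▸ Subgroup.map_mono (Subgroup.map_subtype_le _)) (Subgroup.zpowers_le.2 hzT)
  have hc : ∀ a ∈ A, ∀ b ∈ Subgroup.zpowers z, a * b = b * a := by
    rintro a ha _ ⟨i, rfl⟩
    exact (show Commute a z from hzc a ha).zpow_right i
  have hel' := isElementaryAbelian_sup hTop.elem hzel hc
  obtain ⟨h1, h2⟩ := hTop.unique (le_sup_left.trans hle') hle' hel'
  have h3 := Subgroup.card_le_of_le (le_sup_left : A ≤ A ⊔ Subgroup.zpowers z)
  have := h2 (le_antisymm h1 (hcA ▸ h3))
  exact this ▸ Subgroup.mem_sup_right (Subgroup.mem_zpowers z)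

end CfsgLib.LargeFischer45
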