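import Cfsg.Agent.LargeFischer45.Top

/-!
Large Fischer type: the two classes inside the elementary abelian subgroup of order `2 ^ 11` have
1771 and 276 members; two members of the second class have a product in the second class for 44
partners each, and a member of the first class is such a product in 36 ways.
-/

set_option autoImplicit false

namespace CfsgLib.LargeFischer45

open Finset Cfsg
open CfsgLib.LargeExtraspecial (Setting zOf mem_zOf)

variable {G : Type*} [Group G]

/-- `d` lies in the conjugate of `Q` that belongs to `v`. -/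
def InQ (z : G) (Q : Subgroup G) (v d : G) : Prop := ∃ g : G, g * z * g⁻¹ = v ∧ g⁻¹ * d * g ∈ Q

/-- A nontrivial element that is not a conjugate of `z`. -/
def Other (z a : G) : Prop := a ≠ 1 ∧ ¬ IsConj z a

/-- The local facts at `z`. -/
structure Local (z : G) (Q A : Subgroup G) : Prop where
  top : Top A
  setting : Setting Q z
  mem : z ∈ A
  inter : Nat.card ↥(A ⊓ Q) = 2 ^ 7
  count : {a | a ∈ A ∧ a ∈ Q ∧ Other z a}.ncard = 36
  oneClass : ∀ a ∈ A, a ∈ Q → Other z a → ∀ b ∈ A, b ∈ Q → Other z b → IsConj a b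
  orbit : ∀ a ∈ A, a ∉ Q →
    240 ∣ {b | ∃ m ∈ Subgroup.normalizer (A : Set G), m * z = z * m ∧ m * a * m⁻¹ = b}.ncard
  notSub : ∃ s ∈ A, IsConj z s ∧ ∃ d ∈ A, d ∈ Q ∧ Other z d ∧ ¬ InQ z Q s d
  partners : ∀ w ∈ A, w ∈ Q → Other z w →
    {x | x ∈ A ∧ x ∈ Q ∧ Other z x ∧ Other z (x * w)}.ncard = 4

variable [Finite G] {z : G} {Q A : Subgroup G}

/-- The members of `A` with a property. -/
noncomputable def sel (A : Subgroup G) (p : G → Prop) : Finset G :=
  ((A : Set G) ∩ {a | p a}).toFinite.toFinset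

theorem mem_sel {p : G → Prop} {a : G} : a ∈ sel A p ↔ a ∈ A ∧ p a := by simp [sel]

theorem card_sel (p : G → Prop) : (sel A p).card = {a | a ∈ A ∧ p a}.ncard := by
  rw [← Set.ncard_coe_finset]
  congr 1
  ext a
  simp [mem_sel]

theorem conj_mem_of_mem {m : G} (hm : m ∈ Subgroup.normalizer (A : Set G)) {a : G} (ha : a ∈ A) :
    m * a * m⁻¹ ∈ A := (Subgroup.mem_normalizer_iff.1 hm a).1 ha

theorem isConj_iff_right {z a : G} (g : G) : IsConj z (g * a * g⁻¹) ↔ IsConj z a :=
  ⟨fun h => h.trans (isConj_iff.2 ⟨g, rfl⟩).symm, fun h => h.trans (isConj_iff.2 ⟨g, rfl⟩)⟩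

theorem other_conj {z a : G} (g : G) : Other z (g * a * g⁻¹) ↔ Other z a := by
  rw [Other, Other, isConj_iff_right g, ne_eq, ne_eq, conj_eq_one_iff]

theorem Local.inQ_iff (L : Local z Q A) {v d g : G} (hg : g * z * g⁻¹ = v) :
    InQ z Q v d ↔ g⁻¹ * d * g ∈ Q := by
  refine ⟨?_, fun h => ⟨g, hg, h⟩⟩
  rintro ⟨k, hk, hd⟩
  have hc : (g⁻¹ * k) * z = z * (g⁻¹ * k) := by
    have e : k * z * k⁻¹ = g * z * g⁻¹ := hk.trans hg.symm
    have := congrArg (fun y => g⁻¹ * y * k) e
    simpa [mul_assoc] using this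
  have := (L.setting.normalized _ hc _).1 hd
  convert this using 1
  simp [mul_assoc]

theorem Local.inQ_conj (L : Local z Q A) {v d : G} (m : G) (h : InQ z Q v d) :
    InQ z Q (m * v * m⁻¹) (m * d * m⁻¹) := by
  obtain ⟨g, rfl, hd⟩ := h
  exact ⟨m * g, by simp [mul_assoc], by simpa [mul_assoc] using hd⟩

theorem Local.inQ_self (L : Local z Q A) (d : G) : InQ z Q z d ↔ d ∈ Q := by
  rw [L.inQ_iff (g := 1) (by simp)]; simp

theorem Local.mul_z (L : Local z Q A) {a : G} (ha : a ∈ Q) (ho : Other z a) (hz : IsConj z z) :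
    Other z (a * z) := by
  have hne : a ≠ z := fun e => ho.2 (e ▸ IsConj.refl z)
  have hnot : a ∉ zOf Q := by
    rw [L.setting.mem_iff]
    rintro (e | e)
    · exact ho.1 e
    · exact hne e
  obtain ⟨q, -, hq⟩ := LargeExtraspecial.exists_conj_eq_mul L.setting.extraspecial L.setting.mem_iff
    ha hnot
  rw [L.setting.comm ha, ← hq]
  exact (other_conj q).2 ho

/-- The conjugates of `z` in `A`. -/
noncomputable def zSet (z : G) (A : Subgroup G) : Finset G := sel A (IsConj z)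

/-- The other nontrivial members of `A` that are fused into `Q`. -/
noncomputable def dSet (z : G) (Q A : Subgroup G) : Finset G :=
  sel A fun a => Other z a ∧ ∃ b ∈ A, b ∈ Q ∧ Other z b ∧ IsConj b a

theorem Local.exists_move (L : Local z Q A) {v : G} (hv : v ∈ zSet z A) :
    ∃ m ∈ Subgroup.normalizer (A : Set G), m * z * m⁻¹ = v := by
  obtain ⟨hvA, hc⟩ := mem_sel.1 hv
  obtain ⟨g, rfl⟩ := isConj_iff.1 hc
  exact L.top.fusion L.mem hvA

theorem Local.exists_move' (L : Local z Q A) {a b : G} (ha : a ∈ dSet z Q A) (hb : b ∈ dSet z Q A) :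
    ∃ m ∈ Subgroup.normalizer (A : Set G), m * a * m⁻¹ = b := by
  obtain ⟨haA, -, a', ha', haQ, hao, hca⟩ := mem_sel.1 ha
  obtain ⟨hbA, -, b', hb', hbQ, hbo, hcb⟩ := mem_sel.1 hb
  obtain ⟨g, rfl⟩ := isConj_iff.1 ((hca.symm.trans (L.oneClass a' ha' haQ hao b' hb' hbQ hbo)).trans hcb)
  exact L.top.fusion haA hbA

theorem Local.split_card (L : Local z Q A) (p : G → Prop)
    (hp : ∀ m ∈ Subgroup.normalizer (A : Set G), m * z = z * m → ∀ a ∈ A, p a → p (m * a * m⁻¹)) :
    ∃ i, (sel A p).card = (sel A fun a => a ∈ Q ∧ p a).card + 240 * i := by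
  classical
  have hsplit := card_filter_add_card_filter_not (s := sel A p) (fun a => a ∈ Q)
  have e1 : ((sel A p).filter fun a => a ∈ Q) = sel A (fun a => a ∈ Q ∧ p a) := by
    ext a; simp only [mem_filter, mem_sel]; tauto
  rw [e1] at hsplit
  suffices hdvd : ∀ n, ∀ S : Finset G, S.card = n → (∀ a ∈ S, a ∈ A ∧ a ∉ Q) →
      (∀ m ∈ Subgroup.normalizer (A : Set G), m * z = z * m → ∀ a ∈ S, m * a * m⁻¹ ∈ S) →
      240 ∣ n by
    obtain ⟨i, hi⟩ := hdvd _ ((sel A p).filter fun a => ¬ a ∈ Q) rfl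
      (fun a ha => ⟨(mem_sel.1 (mem_filter.1 ha).1).1, (mem_filter.1 ha).2⟩)
      (fun m hm hmz a ha => by
        obtain ⟨h1, h2⟩ := mem_filter.1 ha
        obtain ⟨haA, hpa⟩ := mem_sel.1 h1
        exact mem_filter.2 ⟨mem_sel.2 ⟨conj_mem_of_mem hm haA, hp m hm hmz a haA hpa⟩,
          fun h3 => h2 ((L.setting.normalized m hmz a).2 h3)⟩)
    exact ⟨i, by omega⟩
  intro n
  induction n using Nat.strong_induction_on with
  | _ n ih =>
    intro S hS hout hinv
    rcases S.eq_empty_or_nonempty with rfl | ⟨a, ha⟩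
    · simp at hS; subst hS; exact dvd_zero _
    set O := {b | ∃ m ∈ Subgroup.normalizer (A : Set G), m * z = z * m ∧ m * a * m⁻¹ = b}
    have hOS : ∀ b ∈ O, b ∈ S := by rintro b ⟨m, hm, hmz, rfl⟩; exact hinv m hm hmz a ha
    let Of := S.filter fun b => b ∈ O
    have hOf : Of.card = O.ncard := by
      rw [← Set.ncard_coe_finset]
      congr 1
      ext b
      simp only [Of, coe_filter, Set.mem_setOf_eq]
      exact ⟨fun h => h.2, fun h => ⟨hOS b h, h⟩⟩
    have haO : a ∈ Of := mem_filter.2 ⟨ha, 1, one_mem _, by simp, by simp⟩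
    have hpos : 0 < Of.card := card_pos.2 ⟨a, haO⟩
    have hle := card_filter_add_card_filter_not (s := S) (fun b => b ∈ O)
    have h240 : 240 ∣ Of.card := by
      rw [hOf]; exact L.orbit a (hout a ha).1 (hout a ha).2
    have hrest := ih (S.filter fun b => ¬ b ∈ O).card
      (by change Of.card + _ = _ at hle; omega) _ rfl
      (fun b hb => hout b (mem_filter.1 hb).1) (fun m hm hmz b hb => by
        obtain ⟨hbS, hbO⟩ := mem_filter.1 hb
        refine mem_filter.2 ⟨hinv m hm hmz b hbS, fun hO => hbO ?_⟩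
        obtain ⟨k, hk, hkz, e⟩ := hO
        have hmz' : m⁻¹ * z = z * m⁻¹ := ((show Commute m z from hmz).inv_left).eq
        refine ⟨m⁻¹ * k, mul_mem (inv_mem hm) hk, ?_, ?_⟩
        · rw [mul_assoc, hkz, ← mul_assoc, hmz', mul_assoc]
        · have : m⁻¹ * (k * a * k⁻¹) * m = b := by rw [e]; simp [mul_assoc]
          simpa [mul_assoc] using this)
    change Of.card + _ = _ at hle
    rw [← hS, ← hle]
    exact dvd_add h240 hrest

/-- The members of `A` inside `Q`. -/
theorem Local.card_inter_z (L : Local z Q A) :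
    (sel A fun a => a ∈ Q ∧ IsConj z a).card = 91 := by
  classical
  have h128 : (sel A fun a => a ∈ Q).card = 128 := by
    rw [card_sel]
    exact (Nat.card_coe_set_eq ((A ⊓ Q : Subgroup G) : Set G)).symm.trans L.inter
  have hsplit := card_filter_add_card_filter_not (s := sel A fun a => a ∈ Q) (fun a => IsConj z a)
  have e1 : ((sel A fun a => a ∈ Q).filter fun a => IsConj z a) =
      sel A (fun a => a ∈ Q ∧ IsConj z a) := by
    ext a; simp only [mem_filter, mem_sel]; tauto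
  have e2 : ((sel A fun a => a ∈ Q).filter fun a => ¬ IsConj z a) =
      insert 1 (sel A fun a => a ∈ Q ∧ Other z a) := by
    ext a
    simp only [mem_filter, mem_sel, mem_insert, Other]
    constructor
    · rintro ⟨⟨h1, h2⟩, h3⟩
      by_cases e : a = 1
      · exact Or.inl e
      · exact Or.inr ⟨h1, h2, e, h3⟩
    · rintro (rfl | ⟨h1, h2, -, h3⟩)
      · refine ⟨⟨one_mem _, one_mem _⟩, fun hc => ?_⟩
        obtain ⟨g, hg⟩ := isConj_iff.1 hc
        have := L.setting.order
        rw [conj_eq_one_iff.1 hg, orderOf_one] at this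
        norm_num at this
      · exact ⟨⟨h1, h2⟩, h3⟩
  rw [e1, e2, card_insert_of_notMem (by simp [mem_sel, Other]), h128] at hsplit
  have h36 : (sel A fun a => a ∈ Q ∧ Other z a).card = 36 := by rw [card_sel]; exact L.count
  omega

theorem Local.mem_dSet_of_mem (L : Local z Q A) {a : G} (ha : a ∈ A) (hq : a ∈ Q) (ho : Other z a) :
    a ∈ dSet z Q A := mem_sel.2 ⟨ha, ho, a, ha, hq, ho, IsConj.refl a⟩

theorem Local.card_inter_d (L : Local z Q A) : (sel A fun a => a ∈ Q ∧ a ∈ dSet z Q A).card = 36 := by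
  have : sel A (fun a => a ∈ Q ∧ a ∈ dSet z Q A) = sel A (fun a => a ∈ Q ∧ Other z a) := by
    ext a
    simp only [mem_sel]
    exact ⟨fun ⟨h1, h2, h3⟩ => ⟨h1, h2, (mem_sel.1 h3).2.1⟩,
      fun ⟨h1, h2, h3⟩ => ⟨h1, h2, L.mem_dSet_of_mem h1 h2 h3⟩⟩
  rw [this, card_sel]; exact L.count

theorem dSet_conj {m a : G} (hm : m ∈ Subgroup.normalizer (A : Set G)) (ha : a ∈ dSet z Q A) :
    m * a * m⁻¹ ∈ dSet z Q A := by
  obtain ⟨haA, ho, b, hb, hbQ, hbo, hc⟩ := mem_sel.1 ha
  exact mem_sel.2 ⟨conj_mem_of_mem hm haA, (other_conj m).2 ho, b, hb, hbQ, hbo,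
    hc.trans (isConj_iff.2 ⟨m, rfl⟩)⟩

theorem zSet_conj {m a : G} (hm : m ∈ Subgroup.normalizer (A : Set G)) (ha : a ∈ zSet z A) :
    m * a * m⁻¹ ∈ zSet z A := by
  obtain ⟨haA, hc⟩ := mem_sel.1 ha
  exact mem_sel.2 ⟨conj_mem_of_mem hm haA, (isConj_iff_right m).2 hc⟩

/-- 1771 and 276. -/
theorem Local.card_sets (L : Local z Q A) :
    (zSet z A).card = 1771 ∧ (dSet z Q A).card = 276 ∧
      ∀ a ∈ A, a ≠ 1 → ¬ IsConj z a → a ∈ dSet z Q A := by
  classical
  obtain ⟨i, hi⟩ := L.split_card (IsConj z) fun m hm _ a _ h => (isConj_iff_right m).2 h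
  obtain ⟨j, hj⟩ := L.split_card (fun a => a ∈ dSet z Q A) fun m hm _ a _ h => dSet_conj hm h
  rw [L.card_inter_z] at hi
  rw [L.card_inter_d] at hj
  have eD : sel A (fun a => a ∈ dSet z Q A) = dSet z Q A := by
    ext a; simp only [mem_sel]; exact ⟨And.right, fun h => ⟨(mem_sel.1 h).1, h⟩⟩
  rw [eD] at hj
  change (zSet z A).card = _ at hi
  have hdis : Disjoint (zSet z A) (dSet z Q A) := disjoint_left.2 fun a h1 h2 =>
    (mem_sel.1 h2).2.1.2 (mem_sel.1 h1).2
  have hsub : zSet z A ∪ dSet z Q A ⊆ sel A (fun a => a ≠ 1) := by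
    intro a ha
    rcases mem_union.1 ha with h | h
    · refine mem_sel.2 ⟨(mem_sel.1 h).1, fun e => ?_⟩
      obtain ⟨g, hg⟩ := isConj_iff.1 (e ▸ (mem_sel.1 h).2)
      have := L.setting.order
      rw [conj_eq_one_iff.1 hg, orderOf_one] at this
      norm_num at this
    · exact mem_sel.2 ⟨(mem_sel.1 h).1, (mem_sel.1 h).2.1.1⟩
  have hA : (sel A fun a => a ≠ 1).card = 2047 := by
    have h0 : (sel A fun _ => True).card = 2 ^ 11 := by
      rw [card_sel, ← L.top.card, ← Nat.card_coe_set_eq]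
      exact Nat.card_congr (Equiv.setCongr (Set.ext fun a => by simp))
    have hins : sel A (fun _ => True) = insert 1 (sel A fun a => a ≠ 1) := by
      ext a
      simp only [mem_sel, mem_insert]
      by_cases e : a = 1 <;> simp [e]
    rw [hins, card_insert_of_notMem (by simp [mem_sel])] at h0
    omega
  have hle := card_le_card hsub
  rw [card_union_of_disjoint hdis, hA] at hle
  -- double counting
  set k₀ := (zSet z A).filter fun v => ∀ d, d ∈ A → d ∈ Q → Other z d → InQ z Q v d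
  obtain ⟨t, ht⟩ : (sel A fun a => a ∈ Q ∧ a ∈ dSet z Q A).Nonempty :=
    card_pos.1 (by rw [L.card_inter_d]; norm_num)
  have htD := (mem_sel.1 ht).2.2
  set k := ((zSet z A).filter fun v => InQ z Q v t).card
  have hab : (zSet z A).card * 36 = (dSet z Q A).card * k := by
    refine card_mul_eq_card_mul (fun v d => InQ z Q v d) (fun v hv => ?_) (fun d hd => ?_)
    · obtain ⟨m, hm, rfl⟩ := L.exists_move hv
      rw [← L.card_inter_d]
      refine card_bij' (fun d _ => m⁻¹ * d * m) (fun d _ => m * d * m⁻¹) ?_ ?_ ?_ ?_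
      · intro d hd
        obtain ⟨hd1, hd2⟩ := mem_filter.1 hd
        have hdA : m⁻¹ * d * m ∈ A := by
          simpa using conj_mem_of_mem (inv_mem hm) (mem_sel.1 hd1).1
        refine mem_sel.2 ⟨hdA, (L.inQ_iff rfl).1 hd2, ?_⟩
        simpa using dSet_conj (inv_mem hm) hd1
      · intro d hd
        obtain ⟨-, hdQ, hdD⟩ := mem_sel.1 hd
        exact mem_filter.2 ⟨dSet_conj hm hdD, L.inQ_conj m ((L.inQ_self d).2 hdQ)⟩
      · intro d _; simp [mul_assoc]
      · intro d _; simp [mul_assoc]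
    · obtain ⟨m, hm, rfl⟩ := L.exists_move' htD hd
      refine card_bij' (fun v _ => m⁻¹ * v * m) (fun v _ => m * v * m⁻¹) ?_ ?_ ?_ ?_
      · intro v hv
        obtain ⟨h1, h2⟩ := mem_filter.1 hv
        refine mem_filter.2 ⟨by simpa using zSet_conj (inv_mem hm) h1, ?_⟩
        simpa [mul_assoc] using L.inQ_conj m⁻¹ h2
      · intro v hv
        obtain ⟨h1, h2⟩ := mem_filter.1 hv
        exact mem_filter.2 ⟨zSet_conj hm h1, L.inQ_conj m h2⟩
      · intro v _; simp [mul_assoc]
      · intro v _; simp [mul_assoc]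
  have hj1 : j ≠ 0 := by
    rintro rfl
    obtain ⟨s, hsA, hs, d, hdA, hdQ, hdo, hnot⟩ := L.notSub
    obtain ⟨m, hm, rfl⟩ := L.exists_move (mem_sel.2 ⟨hsA, hs⟩)
    refine hnot ((L.inQ_iff rfl).2 ?_)
    have hin : ((dSet z Q A).filter fun a => a ∈ Q) = dSet z Q A := by
      refine eq_of_subset_of_card_le (filter_subset _ _) ?_
      have : ((dSet z Q A).filter fun a => a ∈ Q) = sel A (fun a => a ∈ Q ∧ a ∈ dSet z Q A) := by
        ext a
        simp only [mem_filter, mem_sel]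
        exact ⟨fun ⟨h1, h2⟩ => ⟨(mem_sel.1 h1).1, h2, h1⟩, fun ⟨_, h2, h3⟩ => ⟨h3, h2⟩⟩
      rw [this, L.card_inter_d, hj]
    have hmem := dSet_conj (inv_mem hm) (L.mem_dSet_of_mem hdA hdQ hdo)
    rw [← hin, mem_filter] at hmem
    simpa using hmem.2
  rw [hi, hj] at hab hle
  have key : i = 7 ∧ j = 1 := by
    have hib : i ≤ 8 := by omega
    have hjb : j ≤ 8 := by omega
    interval_cases j <;> interval_cases i <;> omega
  obtain ⟨rfl, rfl⟩ := key
  refine ⟨by omega, by omega, fun a ha h1 hnc => ?_⟩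
  have heq := eq_of_subset_of_card_le hsub (by rw [card_union_of_disjoint hdis, hA]; omega)
  have : a ∈ zSet z A ∪ dSet z Q A := heq ▸ mem_sel.2 ⟨ha, h1⟩
  rcases mem_union.1 this with h | h
  · exact absurd (mem_sel.1 h).2 hnc
  · exact h

end CfsgLib.LargeFischer45
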