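import Cfsg.Agent.LargeFischer45.Points
import Cfsg.Agent.DesignUnique.Aut
import Cfsg.Agent.M24Module.Basic

/-!
The automorphisms of the triangular configuration lie in the Mathieu group of degree 24.
-/

set_option autoImplicit false

open scoped Pointwise

namespace CfsgLib.Triangular45

open Finset Cfsg

variable {A : Type*} [CommGroup A] [DecidableEq A] {D : Finset A}

theorem isStar_image (g : MulAut A) (hg : ∀ a, g a ∈ D ↔ a ∈ D) {K : Finset A} (hK : IsStar D K) :
    IsStar D (K.image g) := by
  refine ⟨fun a ha => ?_, by rw [card_image_of_injective _ g.injective, hK.card], ?_⟩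
  · obtain ⟨b, hb, rfl⟩ := mem_image.1 ha
    exact (hg b).2 (hK.sub hb)
  · simp only [mem_image]
    rintro _ ⟨a, ha, rfl⟩ _ ⟨b, hb, rfl⟩ hne
    obtain ⟨h1, h2⟩ := hK.mul a ha b hb (fun e => hne (e ▸ rfl))
    rw [← map_mul]
    refine ⟨(hg _).2 h1, fun h3 => ?_⟩
    obtain ⟨c, hc, e⟩ := h3
    exact h2 (g.injective e ▸ hc)

theorem aut_points (h : Hyp D) (o : Pts D) (g : MulAut A) (hg : ∀ a, g a ∈ D ↔ a ∈ D) :
    ∃ π ∈ setSystemAut (blocks D o), ∀ p q, g (duad D p q) = duad D (π p) (π q) := by
  classical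
  let f : Pts D → Pts D := fun p => ⟨p.1.image g, mem_stars.2 (isStar_image g hg (mem_stars.1 p.2))⟩
  have hf : Function.Injective f := fun p q e =>
    Subtype.ext (image_injective g.injective (congrArg Subtype.val e))
  let π : Equiv.Perm (Pts D) := Equiv.ofBijective f (Finite.injective_iff_bijective.1 hf)
  have hπ : ∀ p q, g (duad D p q) = duad D (π p) (π q) := by
    intro p q
    by_cases e : p = q
    · rw [e, duad_self, duad_self, map_one]
    · refine (duad_eq h (fun e' => e (π.injective e')) ?_ ?_).symm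
      · exact mem_image_of_mem _ (duad_spec h e).1
      · exact mem_image_of_mem _ (duad_spec h e).2
  refine ⟨π, (DesignUnique.mem_aut_iff).2 fun b hb => ?_, hπ⟩
  have himg : π • b = b.image π := rfl
  obtain ⟨hb8, hbv⟩ := hb
  refine ⟨by rw [himg, card_image_of_injective _ π.injective, hb8], ?_⟩
  rw [himg, val, prod_image π.injective.injOn]
  have hp : ∀ p, duad D o (π p) = duad D o (π o) * g (duad D o p) := by
    intro p
    rw [hπ, duad_split h o (π o) (π p), mul_cancel h]
  rw [prod_congr rfl (fun p _ => hp p), prod_mul_distrib, prod_const, hb8,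
    ← map_prod g (fun p => duad D o p) b]
  change _ * g (val D o b) = 1
  rw [hbv, map_one, mul_one, show 8 = 2 * 4 by norm_num, pow_mul, sq, h.sq, one_pow]

theorem exists_coords (h : Hyp D) {t : A} (ht : t ∈ D) :
    ∃ d : GolayPt → GolayPt → A,
      (∀ p q, p ≠ q → d p q ∈ D) ∧ (∀ a ∈ D, ∃ p q, p ≠ q ∧ d p q = a) ∧
      (∀ p q r s, p ≠ q → d p q = d r s → ({p, q} : Finset GolayPt) = {r, s}) ∧
      (∀ p q, d p q = d q p) ∧
      d none (some 0) = t ∧
      ∀ g : MulAut A, (∀ a, g a ∈ D ↔ a ∈ D) →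
        ∃ σ ∈ Cfsg.M24, ∀ p q, g (d p q) = d (σ p) (σ q) := by
  classical
  obtain ⟨a, b, hab, hends⟩ := card_eq_two.1 (card_ends h ht)
  obtain ⟨e₀, he₀⟩ := DesignUnique.exists_equiv24 (card_pts h) (steiner h a)
  have hneq : (none : GolayPt) ≠ some 0 := by simp
  obtain ⟨τ, hτ, hτv⟩ := M24Module.exists_perm (k := 2) (by norm_num) ![e₀ a, e₀ b] ![none, some 0]
    (by
      intro i j hij
      fin_cases i <;> fin_cases j <;> simp_all [e₀.injective.eq_iff])
    (by
      intro i j hij
      fin_cases i <;> fin_cases j <;> simp_all)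
  set e : Pts D ≃ GolayPt := e₀.trans τ with he
  have hea : e a = none := hτv 0
  have heb : e b = some 0 := hτv 1
  have himg : (fun s => s.image e) '' blocks D a = octads := by
    ext o'
    constructor
    · rintro ⟨s, hs, rfl⟩
      have h1 : s.image e₀ ∈ octads := he₀ ▸ ⟨s, hs, rfl⟩
      have h2 := Golay.smul_mem_octads hτ h1
      rwa [smul_finset_def, image_image] at h2
    · intro ho
      have h2 := Golay.smul_mem_octads (inv_mem hτ) ho
      rw [← he₀] at h2
      obtain ⟨s, hs, e'⟩ := h2
      refine ⟨s, hs, ?_⟩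
      have : τ • s.image e₀ = o' := by simp only at e'; rw [e', smul_inv_smul]
      rwa [smul_finset_def, image_image] at this
  refine ⟨fun p q => duad D (e.symm p) (e.symm q), fun p q hne => duad_mem h fun e' =>
      hne (e.symm.injective e'), fun u hu => ?_, fun p q r s hne he' => ?_,
      fun p q => duad_comm h _ _, ?_, fun g hg => ?_⟩
  · obtain ⟨p, q, hne, hpq⟩ := card_eq_two.1 (card_ends h hu)
    refine ⟨e p, e q, fun e' => hne (e.injective e'), ?_⟩
    simp only [Equiv.symm_apply_apply]
    rw [← val_pair h a hne, ← hpq, val_ends h a hu]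
  · simp only at he'
    have hne' : e.symm p ≠ e.symm q := fun e' => hne (e.symm.injective e')
    have hrs : e.symm r ≠ e.symm s := fun e' => h.one (by
      have := duad_mem h hne'
      rwa [he', e', duad_self] at this)
    have := (ends_duad h hne').symm.trans (he' ▸ ends_duad h hrs)
    have := congrArg (fun x => x.image e) this
    simpa [image_insert] using this
  · rw [← hea, ← heb]
    simp only [Equiv.symm_apply_apply]
    rw [← val_pair h a hab, ← hends, val_ends h a ht]
  · obtain ⟨π, hπ, hπd⟩ := aut_points h a g hg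
    refine ⟨e.permCongrHom π, ?_, fun p q => ?_⟩
    · rw [← DesignUnique.aut_octads, ← DesignUnique.map_aut e himg]
      exact ⟨π, hπ, rfl⟩
    · rw [hπd]
      simp [Equiv.permCongrHom]

/-- A group keeping the configuration maps into `M24`, with kernel the kernel of the action, and
the stabiliser of the member `t` goes to the stabiliser of a pair of points. -/
theorem exists_hom (h : Hyp D) {M : Type*} [Group M] (ρ : M →* MulAut A)
    (hρ : ∀ m a, a ∈ D → ρ m a ∈ D) {t : A} (ht : t ∈ D) :
    ∃ Φ : M →* ↥Cfsg.M24, Φ.ker = ρ.ker ∧ ∀ m, ρ m t = t ↔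
      (Φ m : Equiv.Perm GolayPt) ∈
        MulAction.stabilizer (Equiv.Perm GolayPt) ({none, some 0} : Set GolayPt) := by
  classical
  obtain ⟨d, hd, hsurj, hinj, hcomm, hdt, haut⟩ := exists_coords h ht
  have hiff : ∀ m a, ρ m a ∈ D ↔ a ∈ D := fun m a => ⟨fun hm => by
    have := hρ m⁻¹ _ hm
    rwa [← MulAut.mul_apply, ← map_mul, inv_mul_cancel, map_one, MulAut.one_apply] at this, hρ m a⟩
  choose σ hσ hσd using fun m => haut (ρ m) (hiff m)
  have uniq : ∀ σ τ : Equiv.Perm GolayPt, (∀ p q, d (σ p) (σ q) = d (τ p) (τ q)) → σ = τ := by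
    intro σ τ hst
    refine Equiv.ext fun p => ?_
    by_contra hne
    obtain ⟨q, hqp, hq⟩ : ∃ q, q ≠ p ∧ σ.symm (τ p) ≠ q := by
      obtain ⟨q, hq⟩ : ∃ q, q ∉ ({p, σ.symm (τ p)} : Finset GolayPt) := by
        by_contra hno
        push Not at hno
        have hc := card_le_two (a := p) (b := σ.symm (τ p))
        rw [eq_univ_of_forall hno, card_univ] at hc
        exact absurd hc (by decide)
      · exact ⟨q, fun e => hq (by simp [e]), fun e => hq (by simp [← e])⟩
    have := hinj _ _ _ _ (fun e => hqp (σ.injective e).symm) (hst p q)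
    have h1 : τ p ∈ ({σ p, σ q} : Finset GolayPt) := this ▸ mem_insert_self _ _
    simp only [mem_insert, mem_singleton] at h1
    rcases h1 with e | e
    · exact hne e.symm
    · exact hq (by rw [e, Equiv.symm_apply_apply])
  let Φ : M →* ↥Cfsg.M24 := MonoidHom.mk' (fun m => ⟨σ m, hσ m⟩) fun m n => by
    refine Subtype.ext (uniq _ _ fun p q => ?_)
    rw [← hσd, map_mul, MulAut.mul_apply, hσd, hσd]
    rfl
  have hfix : ∀ g : MulAut A, (∀ a ∈ D, g a = a) → g = 1 := by
    intro g hg
    refine MulEquiv.ext fun a => ?_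
    rw [MulAut.one_apply]
    by_cases ha : a ∈ D
    · exact hg a ha
    by_cases ha1 : a = 1
    · rw [ha1, map_one]
    obtain ⟨u, hu⟩ : (D.filter fun u => a * u ∈ D).Nonempty := by
      rw [← card_pos, h.dec a ha1 ha]; norm_num
    obtain ⟨hu1, hu2⟩ := mem_filter.1 hu
    rw [← mul_cancel' h u a, map_mul, hg _ hu2, hg _ hu1]
  refine ⟨Φ, ?_, fun m => ?_⟩
  · ext m
    rw [MonoidHom.mem_ker, MonoidHom.mem_ker]
    refine ⟨fun e => hfix _ fun a ha => ?_, fun e => Subtype.ext (uniq _ _ fun p q => ?_)⟩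
    · obtain ⟨p, q, -, rfl⟩ := hsurj a ha
      rw [hσd, show σ m = 1 from congrArg Subtype.val e]
      rfl
    · show d (σ m p) (σ m q) = _
      rw [← hσd, e, MulAut.one_apply]
      rfl
  · have hne : (none : GolayPt) ≠ some 0 := by simp
    rw [← hdt, hσd, MulAction.mem_stabilizer_iff, Set.smul_set_insert, Set.smul_set_singleton]
    constructor
    · intro e
      have h2 := congrArg (fun s : Finset GolayPt => (s : Set GolayPt))
        (hinj _ _ _ _ (fun e' => hne ((σ m).injective e')) e)
      simpa [coe_insert, Φ, Equiv.Perm.smul_def] using h2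
    · intro e
      simp only [Φ, MonoidHom.mk'_apply, Equiv.Perm.smul_def] at e
      rcases Set.pair_eq_pair_iff.1 e with ⟨e1, e2⟩ | ⟨e1, e2⟩
      · rw [e1, e2]
      · rw [e1, e2, hcomm]

end CfsgLib.Triangular45
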