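import Cfsg.Agent.LargeFischer45.Pairs
import Cfsg.Agent.LargeFischer45.Model
import Cfsg.Agent.S0364
import Cfsg.Agent.S0365

/-!
Large Fischer type: the normalizer of the elementary abelian subgroup of order `2 ^ 11` induces the
Mathieu group of degree 24, the stabiliser of a member of the second class the duad stabiliser.
-/

set_option autoImplicit false

namespace CfsgLib.LargeFischer45

open Cfsg
open scoped Pointwise

variable {G : Type*} [Group G] [Finite G] {z : G} {Q A : Subgroup G}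

theorem top_of_small_index (K : Subgroup ↥Cfsg.M24) (h : K.index ≤ 9) : K = ⊤ := by
  by_contra hK
  haveI hs : IsSimpleGroup ↥Cfsg.M24 := Cfsg.Agent.S0365.result
  have hcard : Nat.card ↥Cfsg.M24 = 244823040 := Cfsg.Agent.S0364.result
  have hker : (MulAction.toPermHom ↥Cfsg.M24 (↥Cfsg.M24 ⧸ K)).ker = ⊥ := by
    rcases Subgroup.Normal.eq_bot_or_eq_top (inferInstance :
        (MulAction.toPermHom ↥Cfsg.M24 (↥Cfsg.M24 ⧸ K)).ker.Normal) with e | e
    · exact e
    · exfalso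
      apply hK
      rw [← Subgroup.normalCore_eq_ker] at e
      exact top_le_iff.1 (e ▸ Subgroup.normalCore_le K)
  have hdvd := Subgroup.card_dvd_of_injective _ ((MonoidHom.ker_eq_bot_iff _).1 hker)
  rw [hcard, Nat.card_perm, ← Subgroup.index_eq_card] at hdvd
  have h9 := hdvd.trans (Nat.factorial_dvd_factorial h)
  norm_num [Nat.factorial] at h9

/-- The configuration on `A`. -/
theorem Local.exists_map (L : Local z Q A) {t : G} (ht : t ∈ A) (ht1 : t ≠ 1) (htz : ¬ IsConj z t) :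
    ∃ Φ : ↥(Subgroup.normalizer (A : Set G)) →* ↥Cfsg.M24,
      Φ.ker = (Subgroup.centralizer (A : Set G)).subgroupOf (Subgroup.normalizer (A : Set G)) ∧
      ∀ m : ↥(Subgroup.normalizer (A : Set G)), ((m : G) * t * (m : G)⁻¹ = t ↔
        (Φ m : Equiv.Perm GolayPt) ∈
          MulAction.stabilizer (Equiv.Perm GolayPt) ({none, some 0} : Set GolayPt)) := by
  classical
  letI : CommGroup ↥A :=
    { (inferInstance : Group ↥A) with mul_comm := fun a b => Subtype.ext (L.comm a.2 b.2) }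
  obtain ⟨-, hD, hall⟩ := L.card_sets
  obtain ⟨hd, he, -⟩ := L.ways_eq
  let D : Finset ↥A := (dSet z Q A).subtype (· ∈ A)
  have hmem : ∀ a : ↥A, a ∈ D ↔ (a : G) ∈ dSet z Q A := fun a => by simp [D]
  have hcard : ∀ (p : ↥A → Prop) [DecidablePred p] (p' : G → Prop),
      (∀ a : ↥A, p a ↔ p' a) → (D.filter p).card = {u | u ∈ dSet z Q A ∧ p' u}.ncard := by
    intro p _ p' hp
    rw [← Finset.card_map (Function.Embedding.subtype (· ∈ A)), ← Set.ncard_coe_finset]
    congr 1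
    ext u
    simp only [Finset.coe_map, Function.Embedding.coe_subtype, Set.mem_image, Finset.coe_filter,
      Set.mem_setOf_eq]
    constructor
    · rintro ⟨a, ⟨ha, hpa⟩, rfl⟩
      exact ⟨(hmem a).1 ha, (hp a).1 hpa⟩
    · rintro ⟨hu, hpu⟩
      exact ⟨⟨u, (mem_sel.1 hu).1⟩, ⟨(hmem _).2 hu, (hp _).2 hpu⟩, rfl⟩
  have hyp : Triangular45.Hyp D := by
    refine ⟨fun a => Subtype.ext (L.sq a.2), fun h1 => ?_, ?_, fun a ha => ?_,
      fun v hv1 hvD => ?_, fun w hw w' hw' hne hn x hx hxw hxw' => ?_,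
      fun w hw w' hw' hne hn => ?_⟩
    · exact ((mem_sel.1 ((hmem 1).1 h1)).2.1).1 rfl
    · rw [← Finset.card_map (Function.Embedding.subtype (· ∈ A)), ← hD]
      congr 1
      exact Finset.subtype_map_of_mem fun x hx => (mem_sel.1 hx).1
    · rw [hcard _ (fun u => (a : G) * u ∈ dSet z Q A) fun u => hmem (a * u)]
      exact hd _ ((hmem a).1 ha)
    · rw [hcard _ (fun u => (v : G) * u ∈ dSet z Q A) fun u => hmem (v * u)]
      exact he _ (L.not_zSet_dSet v.2 (fun e => hv1 (Subtype.ext e)) fun h => hvD ((hmem v).2 h))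
    · exact (hmem _).2 ((L.common ((hmem w).1 hw) ((hmem w').1 hw')
        (fun e => hne (Subtype.ext e)) (fun h => hn ((hmem (w * w')).2 h))).1 _ ((hmem x).1 hx)
        ((hmem (x * w)).1 hxw) ((hmem (x * w')).1 hxw'))
    · rw [hcard _ (fun u => u * (w : G) ∈ dSet z Q A ∧ u * (w' : G) ∈ dSet z Q A)
        fun u => and_congr (hmem (u * w)) (hmem (u * w'))]
      exact (L.common ((hmem w).1 hw) ((hmem w').1 hw') (fun e => hne (Subtype.ext e))
        (fun h => hn ((hmem (w * w')).2 h))).2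
  let ρ : ↥(Subgroup.normalizer (A : Set G)) →* MulAut ↥A := A.normalizerMonoidHom
  have hρ : ∀ m (a : ↥A), ((ρ m a : ↥A) : G) = (m : G) * (a : G) * (m : G)⁻¹ := fun m a => rfl
  obtain ⟨Φ, hker, hstab⟩ := Triangular45.exists_hom hyp ρ
    (fun m a ha => (hmem _).2 (by rw [hρ]; exact dSet_conj m.2 ((hmem a).1 ha)))
    (t := ⟨t, ht⟩) ((hmem _).2 (hall t ht ht1 htz))
  refine ⟨Φ, hker.trans (Subgroup.normalizerMonoidHom_ker A), fun m => ?_⟩
  rw [← hstab m, Subtype.ext_iff, hρ]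

omit [Finite G] in
theorem card_eq_orbit_mul (M : Subgroup G) (a : G) (S : Finset G)
    (hS : ∀ b, b ∈ S ↔ ∃ m ∈ M, m * a * m⁻¹ = b) :
    Nat.card ↥M = S.card * Nat.card ↥(M ⊓ Subgroup.centralizer ({a} : Set G)) := by
  set K := (M ⊓ Subgroup.centralizer ({a} : Set G)).subgroupOf M
  have hK : ∀ m n : ↥M, m⁻¹ * n ∈ K ↔ (m : G) * a * (m : G)⁻¹ = (n : G) * a * (n : G)⁻¹ := by
    intro m n
    simp only [K, Subgroup.mem_subgroupOf, Subgroup.mem_inf, Subgroup.mem_centralizer_singleton_iff,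
      Subgroup.coe_mul, InvMemClass.coe_inv]
    refine ⟨fun h => ?_, fun h => ⟨mul_mem (inv_mem m.2) n.2, ?_⟩⟩
    · have := congrArg (fun y => (m : G) * y * (n : G)⁻¹) h.2
      simpa [mul_assoc] using this.symm
    · have := congrArg (fun y => (m : G)⁻¹ * y * (n : G)) h
      simpa [mul_assoc] using this.symm
  let f : ↥M ⧸ K → {b // b ∈ S} := fun q => Quotient.liftOn' q
    (fun m => ⟨(m : G) * a * (m : G)⁻¹, (hS _).2 ⟨m, m.2, rfl⟩⟩)
    (fun m n h => Subtype.ext ((hK m n).1 (QuotientGroup.leftRel_apply.1 h)))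
  have hf : Function.Bijective f := by
    refine ⟨?_, fun b => ?_⟩
    · rintro ⟨m⟩ ⟨n⟩ h
      exact QuotientGroup.eq.2 ((hK m n).2 (congrArg Subtype.val h))
    · obtain ⟨m, hm, e⟩ := (hS _).1 b.2
      exact ⟨QuotientGroup.mk ⟨m, hm⟩, Subtype.ext e⟩
  rw [Subgroup.card_eq_card_quotient_mul_card_subgroup K, Nat.card_congr (Equiv.ofBijective f hf),
    Nat.card_eq_fintype_card, Fintype.card_coe,
    Nat.card_congr (Subgroup.subgroupOfEquivOfLe inf_le_left).toEquiv]

/-- `N(A)/A` has order at least `|M24|/9`. -/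
theorem Local.dvd_card (L : Local z Q A) (hS : ∀ P : Sylow 2 G, Nat.card ↥(P : Subgroup G) = 2 ^ 21)
    (T : Sylow 2 G) (hAT : A ≤ (T : Subgroup G))
    (hTz : ∀ x ∈ (T : Subgroup G), x * z = z * x) :
    2 ^ 11 * 27202560 ∣ Nat.card ↥(Subgroup.normalizer (A : Set G)) := by
  classical
  set M := Subgroup.normalizer (A : Set G) with hM
  set Mz := M ⊓ Subgroup.centralizer ({z} : Set G) with hMz
  have h1 : Nat.card ↥M = 1771 * Nat.card ↥Mz := by
    rw [card_eq_orbit_mul M z (zSet z A) fun b => ⟨fun hb => L.exists_move hb, ?_⟩, L.card_sets.1]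
    rintro ⟨m, hm, rfl⟩
    exact mem_sel.2 ⟨conj_mem_of_mem hm L.mem, isConj_iff.2 ⟨m, rfl⟩⟩
  have hTle : (T : Subgroup G) ≤ Mz := by
    intro x hx
    refine ⟨?_, Subgroup.mem_centralizer_singleton_iff.2 (hTz x hx)⟩
    have key : ∀ y ∈ (T : Subgroup G), ∀ a ∈ A, y * a * y⁻¹ ∈ A := by
      intro y hy a ha
      have hle : A.map (MulAut.conj y).toMonoidHom ≤ (T : Subgroup G) := by
        rintro _ ⟨b, hb, rfl⟩
        exact mul_mem (mul_mem hy (hAT hb)) (inv_mem hy)
      rw [← (L.top.unique hAT hle (L.top.conj y).elem).2 (L.top.conj y).card]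
      exact ⟨a, ha, rfl⟩
    refine Subgroup.mem_normalizer_iff.2 fun a => ⟨key x hx a, fun h => ?_⟩
    have := key x⁻¹ (inv_mem hx) _ h
    simpa [mul_assoc] using this
  have h2 : 2 ^ 21 ∣ Nat.card ↥Mz := hS T ▸ Subgroup.card_dvd_of_le hTle
  have h15 : 15 ∣ Nat.card ↥Mz := by
    obtain ⟨a, haA, haQ⟩ : ∃ a ∈ A, a ∉ Q := by
      by_contra hno
      push Not at hno
      have := Subgroup.card_le_of_le (le_inf le_rfl hno : A ≤ A ⊓ Q)
      rw [L.top.card, L.inter] at this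
      norm_num at this
    have horb := L.orbit a haA haQ
    set O := {b | ∃ m ∈ M, m * z = z * m ∧ m * a * m⁻¹ = b} with hO
    have := card_eq_orbit_mul Mz a O.toFinite.toFinset fun b => by
      rw [Set.Finite.mem_toFinset, hO, Set.mem_setOf_eq]
      constructor
      · rintro ⟨m, hm, hmz, e⟩
        exact ⟨m, ⟨hm, Subgroup.mem_centralizer_singleton_iff.2 hmz⟩, e⟩
      · rintro ⟨m, ⟨hm, hmz⟩, e⟩
        exact ⟨m, hm, Subgroup.mem_centralizer_singleton_iff.1 hmz, e⟩
    rw [this, ← Set.ncard_eq_toFinset_card]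
    exact Dvd.dvd.mul_right ((by norm_num : 15 ∣ 240).trans horb) _
  have h3 : 2 ^ 21 * 15 ∣ Nat.card ↥Mz :=
    (by norm_num : Nat.Coprime (2 ^ 21) 15).mul_dvd_of_dvd_of_dvd h2 h15
  rw [h1, show 2 ^ 11 * 27202560 = 1771 * (2 ^ 21 * 15) by norm_num]
  exact mul_dvd_mul_left _ h3

/-- The three theorems, given the local facts. -/
theorem Local.mathieu (L : Local z Q A) (hS : ∀ P : Sylow 2 G, Nat.card ↥(P : Subgroup G) = 2 ^ 21)
    (T : Sylow 2 G) (hAT : A ≤ (T : Subgroup G)) (hTz : ∀ x ∈ (T : Subgroup G), x * z = z * x)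
    (hC : Subgroup.centralizer (A : Set G) ≤ A) {t : G} (ht : t ∈ A) (ht1 : t ≠ 1)
    (htz : ¬ IsConj z t) :
    ∃ Φ : ↥(Subgroup.normalizer (A : Set G)) →* ↥Cfsg.M24, Function.Surjective Φ ∧
      Φ.ker = A.subgroupOf (Subgroup.normalizer (A : Set G)) ∧
      ∀ m : ↥(Subgroup.normalizer (A : Set G)), ((m : G) * t * (m : G)⁻¹ = t ↔
        (Φ m : Equiv.Perm GolayPt) ∈
          MulAction.stabilizer (Equiv.Perm GolayPt) ({none, some 0} : Set GolayPt)) := by
  obtain ⟨Φ, hker, hstab⟩ := L.exists_map ht ht1 htz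
  have hA : Subgroup.centralizer (A : Set G) = A := le_antisymm hC fun a ha =>
    Subgroup.mem_centralizer_iff.2 fun b hb => L.comm hb ha
  rw [hA] at hker
  refine ⟨Φ, MonoidHom.range_eq_top.1 (top_of_small_index _ ?_), hker, hstab⟩
  have h := Φ.ker.card_mul_index
  rw [Subgroup.index_ker, hker, Nat.card_congr (Subgroup.subgroupOfEquivOfLe
    (Subgroup.le_normalizer (H := A))).toEquiv, L.top.card] at h
  have hd := L.dvd_card hS T hAT hTz
  rw [← h] at hd
  have hd' := Nat.le_of_dvd Nat.card_pos (Nat.dvd_of_mul_dvd_mul_left (by norm_num) hd)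
  have h2 := Φ.range.card_mul_index
  rw [show Nat.card ↥Cfsg.M24 = 244823040 from Cfsg.Agent.S0364.result] at h2
  nlinarith

end CfsgLib.LargeFischer45
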