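import Cfsg.Agent.LargeFischer45.Mathieu

/-!
Large Fischer type: the statements on the normalizer of the Thompson subgroup of a Sylow
2-subgroup, given the local facts at `z`.
-/

set_option autoImplicit false

namespace CfsgLib.LargeFischer45

open Cfsg
open scoped Pointwise

variable {G : Type*} [Group G] [Finite G] {z : G}
  {Q : Subgroup (Subgroup.centralizer ({z} : Set G))} [Q.Normal] {A : Subgroup G}

/-- What is needed from the frame. -/
structure Facts (z : G) (Q : Subgroup (Subgroup.centralizer ({z} : Set G))) (A : Subgroup G) :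
    Prop where
  loc : Local z (Q.map (Subgroup.centralizer ({z} : Set G)).subtype) A
  sylow : ∃ T : Sylow 2 G, A ≤ (T : Subgroup G) ∧ ∀ x ∈ (T : Subgroup G), x * z = z * x
  cent : Subgroup.centralizer (A : Set G) ≤ A

omit [Finite G] in
theorem exists_conj_normalizer (A : Subgroup G) (g : G) :
    ∃ e : ↥(Subgroup.normalizer (A : Set G)) ≃*
        ↥(Subgroup.normalizer ((A.map (MulAut.conj g).toMonoidHom : Subgroup G) : Set G)),
      ∀ m, ((e m : ↥(Subgroup.normalizer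
        ((A.map (MulAut.conj g).toMonoidHom : Subgroup G) : Set G))) : G) = g * (m : G) * g⁻¹ := by
  have h : (Subgroup.normalizer (A : Set G)).map (MulAut.conj g).toMonoidHom =
      Subgroup.normalizer ((A.map (MulAut.conj g).toMonoidHom : Subgroup G) : Set G) := by
    exact Subgroup.map_equiv_normalizer_eq A (MulAut.conj g)
  exact ⟨((MulAut.conj g).subgroupMap _).trans (MulEquiv.subgroupCongr h), fun m => rfl⟩

theorem mem_conj_iff (A : Subgroup G) (g x : G) :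
    g * x * g⁻¹ ∈ A.map (MulAut.conj g).toMonoidHom ↔ x ∈ A :=
  Subgroup.mem_map_iff_mem (f := (MulAut.conj g).toMonoidHom) (MulAut.conj g).injective

theorem Facts.exists_member (hL : Facts z Q A) : ∃ t ∈ A, t ≠ 1 ∧ ¬ IsConj z t := by
  classical
  obtain ⟨t, ht⟩ := Finset.card_pos.1 (show 0 < (dSet z (Q.map (Subgroup.centralizer ({z} : Set G)).subtype) A).card by
    rw [hL.loc.card_sets.2.1]; norm_num)
  exact ⟨t, (mem_sel.1 ht).1, (mem_sel.1 ht).2.1⟩

/-- The normalizer modulo the subgroup. -/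
theorem thompson_mathieu (hF : IsOfLargeFischerTypeAt z Q) (hL : Facts z Q A) (T : Sylow 2 G)
    (A' M : Subgroup G) (hA : A' = thompsonSubgroupOf 2 (T : Subgroup G))
    (hM : M = Subgroup.normalizer (A' : Set G)) :
    IsElementaryAbelian 2 A' ∧ Nat.card A' = 2 ^ 11 ∧
      ∃ _ : (A'.subgroupOf M).Normal, Nonempty (↥M ⧸ A'.subgroupOf M ≃* ↥Cfsg.M24) := by
  obtain ⟨g, hg⟩ := hL.loc.top.exists_thompson T
  rw [hg] at hA
  subst hA hM
  refine ⟨(hL.loc.top.conj g).elem, (hL.loc.top.conj g).card, Subgroup.normal_in_normalizer, ?_⟩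
  obtain ⟨T₀, hT₀, hT₀z⟩ := hL.sylow
  obtain ⟨t, ht, ht1, htz⟩ := hL.exists_member
  obtain ⟨Φ, hsurj, hker, -⟩ := hL.loc.mathieu (card_sylow hF) T₀ hT₀ hT₀z hL.cent ht ht1 htz
  obtain ⟨e, he⟩ := exists_conj_normalizer A g
  let Ψ := Φ.comp e.symm.toMonoidHom
  have hk : Ψ.ker = (A.map (MulAut.conj g).toMonoidHom).subgroupOf
      (Subgroup.normalizer ((A.map (MulAut.conj g).toMonoidHom : Subgroup G) : Set G)) := by
    ext m
    obtain ⟨n, rfl⟩ := e.surjective m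
    simp only [Ψ, MonoidHom.mem_ker, MonoidHom.comp_apply, MulEquiv.coe_toMonoidHom,
      MulEquiv.symm_apply_apply, Subgroup.mem_subgroupOf, he, mem_conj_iff]
    rw [← MonoidHom.mem_ker, hker, Subgroup.mem_subgroupOf]
  haveI : Ψ.ker.Normal := inferInstance
  exact ⟨(QuotientGroup.quotientMulEquivOfEq hk.symm).trans
    (QuotientGroup.quotientKerEquivOfSurjective Ψ (hsurj.comp e.symm.surjective))⟩

/-- Fusion and the two orbits. -/
theorem thompson_fusion (hL : Facts z Q A) (T : Sylow 2 G)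
    (A' M : Subgroup G) (hA : A' = thompsonSubgroupOf 2 (T : Subgroup G))
    (hM : M = Subgroup.normalizer (A' : Set G)) :
    (∀ a ∈ A', ∀ g : G, g * a * g⁻¹ ∈ A' → ∃ m ∈ M, m * a * m⁻¹ = g * a * g⁻¹) ∧
      (∃ a ∈ A', a ≠ 1 ∧ IsConj z a) ∧ (∃ a ∈ A', a ≠ 1 ∧ ¬ IsConj z a) ∧
      ∀ a ∈ A', ∀ b ∈ A', a ≠ 1 → b ≠ 1 → (IsConj z a ↔ IsConj z b) →
        ∃ m ∈ M, m * a * m⁻¹ = b := by
  obtain ⟨g, hg⟩ := hL.loc.top.exists_thompson T
  rw [hg] at hA
  subst hA hM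
  obtain ⟨t, ht, ht1, htz⟩ := hL.exists_member
  have hfus : ∀ a ∈ A.map (MulAut.conj g).toMonoidHom, ∀ k : G,
      k * a * k⁻¹ ∈ A.map (MulAut.conj g).toMonoidHom →
      ∃ m ∈ Subgroup.normalizer ((A.map (MulAut.conj g).toMonoidHom : Subgroup G) : Set G),
        m * a * m⁻¹ = k * a * k⁻¹ := fun a ha k hk => (hL.loc.top.conj g).fusion ha hk
  refine ⟨hfus, ⟨g * z * g⁻¹, (mem_conj_iff A g z).2 hL.loc.mem, fun e => hL.loc.one_ne ?_,
    (isConj_iff_right g).2 (IsConj.refl z)⟩,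
    ⟨g * t * g⁻¹, (mem_conj_iff A g t).2 ht, fun e => ht1 (conj_eq_one_iff.1 e),
      fun h => htz ((isConj_iff_right g).1 h)⟩, ?_⟩
  · exact e ▸ (isConj_iff_right g).2 (IsConj.refl z)
  rintro a ha b hb ha1 hb1 hiff
  obtain ⟨k, rfl⟩ : ∃ k, k * a * k⁻¹ = b := by
    rw [← isConj_iff]
    by_cases hz : IsConj z a
    · exact hz.symm.trans (hiff.1 hz)
    obtain ⟨a₀, ha₀, rfl⟩ := ha
    obtain ⟨b₀, hb₀, rfl⟩ := hb
    simp only [MulEquiv.coe_toMonoidHom, MulAut.conj_apply] at *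
    have hz' : ¬ IsConj z b₀ := fun h => hz (hiff.2 ((isConj_iff_right g).2 h))
    rw [isConj_iff_right g] at hz
    obtain ⟨m, -, hm⟩ := hL.loc.exists_move'
      (hL.loc.card_sets.2.2 a₀ ha₀ (fun e => ha1 (by simp [e])) hz)
      (hL.loc.card_sets.2.2 b₀ hb₀ (fun e => hb1 (by simp [e])) hz')
    exact ((isConj_iff.2 ⟨g, rfl⟩ : IsConj a₀ _).symm.trans (isConj_iff.2 ⟨m, hm⟩)).trans
      (isConj_iff.2 ⟨g, rfl⟩)
  exact hfus a ha k hb

/-- The stabiliser of a member of the second class. -/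
theorem thompson_stabilizer (hF : IsOfLargeFischerTypeAt z Q) (hL : Facts z Q A) (T : Sylow 2 G)
    (A' M : Subgroup G) (hA : A' = thompsonSubgroupOf 2 (T : Subgroup G))
    (hM : M = Subgroup.normalizer (A' : Set G)) (t : G) (htA : t ∈ A') (ht2 : orderOf t = 2)
    (ht : ¬ IsConj z t) :
    ∃ _ : (A'.subgroupOf (M ⊓ Subgroup.centralizer ({t} : Set G))).Normal,
      Nonempty (↥(M ⊓ Subgroup.centralizer ({t} : Set G)) ⧸
          A'.subgroupOf (M ⊓ Subgroup.centralizer ({t} : Set G)) ≃*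
        ↥(Cfsg.M24 ⊓ MulAction.stabilizer (Equiv.Perm Cfsg.GolayPt)
          ({none, some 0} : Set Cfsg.GolayPt))) := by
  obtain ⟨g, hg⟩ := hL.loc.top.exists_thompson T
  rw [hg] at hA
  subst hA hM
  obtain ⟨t₀, ht₀, rfl⟩ := htA
  simp only [MulEquiv.coe_toMonoidHom, MulAut.conj_apply] at *
  rw [isConj_iff_right g] at ht
  have ht1 : t₀ ≠ 1 := by rintro rfl; simp at ht2
  obtain ⟨T₀, hT₀, hT₀z⟩ := hL.sylow
  obtain ⟨Φ, hsurj, hker, hstab⟩ := hL.loc.mathieu (card_sylow hF) T₀ hT₀ hT₀z hL.cent ht₀ ht1 ht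
  have hexe := exists_conj_normalizer A g
  set N := Subgroup.normalizer ((A.map (MulAut.conj g).toMonoidHom : Subgroup G) : Set G)
  set S := N ⊓ Subgroup.centralizer ({g * t₀ * g⁻¹} : Set G)
  obtain ⟨e, he⟩ := hexe
  have hmem : ∀ n, ((e n : ↥N) : G) ∈ Subgroup.centralizer ({g * t₀ * g⁻¹} : Set G) ↔
      (n : G) * t₀ * (n : G)⁻¹ = t₀ := by
    intro n
    rw [Subgroup.mem_centralizer_singleton_iff, he, mul_inv_eq_iff_eq_mul]
    refine ⟨fun h => ?_, fun h => ?_⟩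
    · have := congrArg (fun y => g⁻¹ * y * g) h
      simpa [mul_assoc] using this
    · have := congrArg (fun y => g * y * g⁻¹) h
      simpa [mul_assoc] using this
  let inc : ↥S →* ↥N := Subgroup.inclusion inf_le_left
  let Ψ₀ : ↥S →* ↥Cfsg.M24 := Φ.comp (e.symm.toMonoidHom.comp inc)
  have himg : ∀ s : ↥S, (Ψ₀ s : Equiv.Perm GolayPt) ∈
      Cfsg.M24 ⊓ MulAction.stabilizer (Equiv.Perm GolayPt) ({none, some 0} : Set GolayPt) := by
    intro s
    refine ⟨(Ψ₀ s).2, (hstab _).1 ((hmem _).1 ?_)⟩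
    change ((e (e.symm (inc s)) : ↥N) : G) ∈ _
    rw [MulEquiv.apply_symm_apply]
    exact s.2.2
  let Ψ := MonoidHom.codRestrict ((Cfsg.M24).subtype.comp Ψ₀) _ himg
  have hΨ : Function.Surjective Ψ := by
    rintro ⟨σ, hσ, hσs⟩
    obtain ⟨n, hn⟩ := hsurj ⟨σ, hσ⟩
    refine ⟨⟨(e n : G), Subgroup.mem_inf.2 ⟨(e n).2, (hmem n).2 ((hstab n).2 (by rw [hn]; exact hσs))⟩⟩,
      Subtype.ext ?_⟩
    change ((Φ (e.symm (inc _)) : ↥Cfsg.M24) : Equiv.Perm GolayPt) = σ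
    have hinc : ∀ h : (e n : G) ∈ S, inc ⟨(e n : G), h⟩ = e n := fun _ => rfl
    rw [hinc, e.symm_apply_apply, hn]
  have hk : Ψ.ker = (A.map (MulAut.conj g).toMonoidHom).subgroupOf S := by
    ext s
    obtain ⟨n, hn⟩ := e.surjective (inc s)
    have hsn : (s : G) = g * (n : G) * g⁻¹ := by rw [← he n, hn]; rfl
    rw [MonoidHom.mem_ker, Subgroup.mem_subgroupOf, hsn, mem_conj_iff, ← Subgroup.mem_subgroupOf,
      ← hker, MonoidHom.mem_ker]
    have hval : ((Ψ s : Equiv.Perm GolayPt)) = ((Φ n : ↥Cfsg.M24) : Equiv.Perm GolayPt) := by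
      change ((Φ (e.symm (inc s)) : ↥Cfsg.M24) : Equiv.Perm GolayPt) = _
      rw [← hn, e.symm_apply_apply]
    exact ⟨fun h => Subtype.ext (hval ▸ congrArg Subtype.val h),
      fun h => Subtype.ext (hval.trans (congrArg Subtype.val h))⟩
  refine ⟨hk ▸ Ψ.normal_ker, ?_⟩
  haveI : ((A.map (MulAut.conj g).toMonoidHom).subgroupOf S).Normal := hk ▸ Ψ.normal_ker
  exact ⟨(QuotientGroup.quotientMulEquivOfEq hk.symm).trans
    (QuotientGroup.quotientKerEquivOfSurjective Ψ hΨ)⟩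

end CfsgLib.LargeFischer45
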