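import Cfsg.Agent.LargeFischer45.Pointwise
import Cfsg.Agent.LargeFischer45.Final
import Mathlib.GroupTheory.GroupAction.ConjAct
import Mathlib.GroupTheory.GroupAction.Quotient

/-!
Large Fischer type: the local facts at `z` on the elementary subgroup of order `2 ^ 11`, from the model of
`H/Q` on the frame and the two classes of involutions of `Q`.
-/

set_option autoImplicit false
set_option maxRecDepth 100000

namespace CfsgLib.LargeFischer45

open Cfsg CfsgLib.LargeFischer85 CfsgLib.LargeFischer28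
open CfsgLib.LocalP (isElementaryAbelian_iff isElementaryAbelian_map isElementaryAbelian_of_map)

/-- The centralizer of an element. -/
abbrev CG {G : Type*} [Group G] (z : G) : Subgroup G := Subgroup.centralizer ({z} : Set G)

theorem c_spanList : ((([1701, 3771, 2457, 1470, 2991, 2685] : List ℕ).all fun u =>
      oneN.testBit u && (spanN b0Basis).contains u) &&
    ((spanN b0Basis).all fun u => (spanN [1701, 3771, 2457, 1470, 2991, 2685]).contains u)) = true := by
  decide +kernel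

theorem card_B0_sub (P : W → Prop) (p : ℕ → Bool) (hp : ∀ v : W, p v.val = true ↔ P v) :
    Nat.card {v : W // inB0 v ∧ P v} = (spanN b0Basis).countP p := by
  classical
  have h := c_b0
  simp only [Bool.and_eq_true, List.all_eq_true, List.contains_iff_mem, decide_eq_true_eq,
    beq_iff_eq] at h
  obtain ⟨⟨⟨hall, hnd⟩, -⟩, -⟩ := h
  rw [List.countP_eq_length_filter, ← List.toFinset_card_of_nodup (hnd.filter p),
    Nat.card_eq_fintype_card, Fintype.card_subtype, ← Finset.card_map Fin.valEmbedding]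
  congr 1
  ext n
  simp only [Finset.mem_map, List.mem_toFinset, List.mem_filter, Fin.valEmbedding_apply]
  refine ⟨fun ⟨a, h1, h2⟩ => ?_, fun ⟨h1, h2⟩ => ⟨⟨n, (hall n h1).1.1.1⟩, ?_, rfl⟩⟩
  · obtain ⟨h3, h4⟩ := (Finset.mem_filter.1 h1).2
    exact h2 ▸ ⟨h3, (hp a).2 h4⟩
  · exact Finset.mem_filter.2 ⟨Finset.mem_univ _, h1, (hp ⟨n, _⟩).1 h2⟩

theorem card_fix_conj (m b : Equiv.Perm W) :
    Nat.card {v : W // (m * b * m⁻¹) v = v} = Nat.card {v : W // b v = v} :=
  Nat.card_congr (Equiv.subtypeEquiv m⁻¹ fun v => by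
    simp only [Equiv.Perm.mul_apply]
    rw [Equiv.Perm.eq_inv_iff_eq])

theorem c_fixBase : cntB (liftP (fun v => decide (appN (elsC (jN (a0J.getD 0 0))) 12 v.val = v.val)) ·) 12 0 = 256 := by
  decide +kernel

/-- An involution of the subgroup of order 16 fixes at most 256 vectors. -/
theorem card_fix_le {g : Equiv.Perm W} (hg : inA0 g) (h1 : g ≠ 1) :
    Nat.card {v : W // g v = v} ≤ 256 := by
  classical
  have h0 : a0J.getD 0 0 < 107 := getD_a0J_lt 0
  have hmem : a0J.getD 0 0 ∈ a0J := by decide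
  obtain ⟨m, -, rfl⟩ := exists_mover (a := jP ⟨_, h0⟩) (Or.inr ⟨⟨_, h0⟩, hmem, rfl⟩) hg
    (jP_ne_one _) h1
  rw [card_fix_conj]
  refine le_of_eq ?_
  rw [Nat.card_eq_fintype_card, Fintype.card_subtype, ← c_fixBase, ← cntB_spec, ← Finset.card_map Fin.valEmbedding]
  congr 1
  ext n
  simp only [Finset.mem_map, Finset.mem_filter, Finset.mem_univ, true_and, Finset.mem_Ico,
    Fin.valEmbedding_apply, zero_add, zero_le, liftP]
  refine ⟨fun ⟨a, h, e⟩ => ?_, fun ⟨hn, h⟩ => ?_⟩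
  · subst e
    refine ⟨a.isLt, ?_⟩
    simp only [a.isLt, dif_pos, decide_eq_true_eq]
    exact congrArg Fin.val h
  · have hn' : n < 4096 := hn
    simp only [hn', dif_pos, decide_eq_true_eq] at h
    exact ⟨⟨n, hn'⟩, Fin.ext h, rfl⟩

/-- The packed columns of a diagonal map of order three. -/
def diagC : ℕ := 5579269937306523552006866497419493861498881

/-- The packed columns of its inverse. -/
def diagD : ℕ := 16728281240970934305410039692762012257886209

theorem c_diag : (glB diagC diagD &&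
    ((List.range 12).all fun j => Nat.iterate (appN diagC 12) 3 (2 ^ j) == 2 ^ j) &&
    appN diagC 12 170 == 170 && appN diagC 12 2078 == 1054 &&
    (spanN b0Basis).contains 170 && (spanN b0Basis).contains 2078 &&
    !(spanN b0Basis).contains 1054 && singN.testBit 170 && !oneN.testBit 170) = true := by
  decide +kernel

variable {G : Type*} [Group G] {z : G} {Q : Subgroup ↥(CG z)} [Q.Normal] {pr : ↥Q → W}
  {act : (↥(CG z) ⧸ Q) →* Equiv.Perm W}

/-- The map to the frame. -/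
def fhom (act : (↥(CG z) ⧸ Q) →* Equiv.Perm W) : ↥(CG z) →* Equiv.Perm W :=
  act.comp (QuotientGroup.mk' Q)

/-- The classes of the involutions of `Q`. -/
structure ClassData (z : G) (Q : Subgroup ↥(CG z)) (pr : ↥Q → W) : Prop where
  two : ∀ q : ↥Q, pr q ≠ 0 → sing (pr q) →
    (IsConj z ((q : ↥(CG z)) : G) ↔ ¬ inOne 0 (pr q))
  one : ∀ a b : ↥Q, inOne 0 (pr a) → inOne 0 (pr b) →
    IsConj ((a : ↥(CG z)) : G) ((b : ↥(CG z)) : G)

omit [Q.Normal] in
theorem ClassData.conj (hc : ClassData z Q pr) {g : Equiv.Perm W} (hg : g ∈ GX) :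
    ClassData z Q (fun a => g (pr a)) := by
  have hg' : IsGood g := hg
  refine ⟨fun q h0 hs => ?_, fun a b ha hb => hc.one a b ((hg'.one_iff _).1 ha) ((hg'.one_iff _).1 hb)⟩
  rw [hg'.one_iff]
  exact hc.two q (fun e => h0 (by show g (pr q) = 0; rw [e, hg'.add.map_zero])) ((hg'.sing_iff _).1 hs)

theorem fhom_ker (hM : Model z Q pr act) (h : ↥(CG z)) : fhom act h = 1 ↔ h ∈ Q := by
  rw [← QuotientGroup.eq_one_iff (N := Q) h]
  exact ⟨fun e => hM.act_inj (e.trans (map_one act).symm), fun e => by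
    show act (h : ↥(CG z) ⧸ Q) = 1
    rw [e, map_one]⟩

theorem fhom_good (hM : Model z Q pr act) (h : ↥(CG z)) : IsGood (fhom act h) := hM.good _

theorem fhom_range (hM : Model z Q pr act) :
    (∀ g ∈ GL6, g * g ∈ (fhom act).range) ∧ ∀ i : Fin 512, elP i ∈ (fhom act).range →
      linN.testBit i.val = true → flagN.testBit i.val = true := by
  have hR : (fhom act).range ≤ GX := by rintro _ ⟨h, rfl⟩; exact hM.good _
  have hRc : Nat.card (fhom act).range = 19595520 := by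
    rw [fhom, MonoidHom.range_comp, QuotientGroup.range_mk', ← MonoidHom.range_eq_map,
      ← Nat.card_congr (MonoidHom.ofInjective hM.act_inj).toEquiv, hM.card]
  obtain ⟨k, hk⟩ := hM.anti
  obtain ⟨c, rfl⟩ := QuotientGroup.mk'_surjective Q k
  obtain ⟨hsq, hflag, -⟩ := group_facts hR hRc ⟨c, rfl⟩ hk
  exact ⟨hsq, hflag⟩

theorem act_pr' (hM : Model z Q pr act) (h : ↥(CG z)) (q : ↥Q) :
    ∃ r : ↥Q, (r : ↥(CG z)) = h * q * h⁻¹ ∧ pr r = fhom act h (pr q) :=
  ⟨⟨h * q * h⁻¹, Subgroup.Normal.conj_mem inferInstance _ q.2 h⟩, rfl,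
    (hM.act_pr h q _ rfl).symm⟩

theorem fix_of_comm (hM : Model z Q pr act) {h : ↥(CG z)} {q : ↥Q}
    (hc : h * q = q * h) : fhom act h (pr q) = pr q :=
  hM.act_pr h q q (by rw [hc, mul_inv_cancel_right])

variable [Finite G]

/-- The subgroup in standard position. -/
structure Std (z : G) (Q : Subgroup ↥(CG z)) [Q.Normal] (pr : ↥Q → W)
    (act : (↥(CG z) ⧸ Q) →* Equiv.Perm W) (T : Sylow 2 ↥(CG z)) (A : Subgroup ↥(CG z)) : Prop where
  model : Model z Q pr act
  cls : ClassData z Q pr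
  le : A ≤ (T : Subgroup ↥(CG z))
  sq : ∀ a ∈ A, a * a = 1
  card : Nat.card A = 2 ^ 11
  inter : Nat.card ↥(A ⊓ Q) = 2 ^ 7
  uniq : ∀ B : Subgroup ↥(CG z), B ≤ (T : Subgroup ↥(CG z)) → (∀ b ∈ B, b * b = 1) →
    2 ^ 11 ≤ Nat.card B → B = A
  mem_iff : ∀ h, h ∈ A ↔ inA0 (fhom act h) ∧ ∀ q : ↥Q, inB0 (pr q) → h * q = q * h
  memQ : ∀ q : ↥Q, (q : ↥(CG z)) ∈ A ↔ inB0 (pr q)
  surj : ∀ a, inA0 a → ∃ h ∈ A, fhom act h = a

theorem exists_std (hM : Model z Q pr act) (hc : ClassData z Q pr) :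
    ∃ pr' act' T A, Std z Q pr' act' T A := by
  classical
  obtain ⟨T⟩ : Nonempty (Sylow 2 ↥(CG z)) := inferInstance
  have hR : act.range ≤ GX := by rintro _ ⟨h, rfl⟩; exact hM.good _
  have hRc : Nat.card act.range = 19595520 := by
    rw [← Nat.card_congr (MonoidHom.ofInjective hM.act_inj).toEquiv, hM.card]
  obtain ⟨k, hk⟩ := hM.anti
  set P := (T : Subgroup ↥(CG z)).map (act.comp (QuotientGroup.mk' Q))
  have hP : P ≤ act.range := by rintro _ ⟨t, -, rfl⟩; exact ⟨_, rfl⟩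
  obtain ⟨g, hg, hgP⟩ := exists_conj_into_PS hR hRc ⟨k, rfl⟩ hk hP (T.isPGroup'.map _)
  have hM' := hM.conj hg
  have hc' := hc.conj hg
  set pr' := fun a => g (pr a)
  set act' := (MulAut.conj g).toMonoidHom.comp act
  have hT : ∀ t ∈ (T : Subgroup ↥(CG z)), act' (QuotientGroup.mk' Q t) ∈ PS :=
    fun t ht => hgP _ ⟨t, ht, rfl⟩
  obtain ⟨A, hAT, hA2, hAc, hAQ, hAmap, huniq⟩ := main hM' T hT
  set f := fhom act' with hf
  have fker := fhom_ker hM'
  obtain ⟨-, hflag⟩ := fhom_range hM'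
  set S := A.map f with hS
  have hS16 : Nat.card S = 16 := by
    rw [hS, hf, fhom, ← Subgroup.map_map, Subgroup.card_map_of_injective hM'.act_inj, hAmap]
  have hSel : IsElemAllowed S := by
    refine ⟨?_, ?_⟩
    · rintro _ ⟨b, hb, rfl⟩; rw [← map_mul, hA2 b hb, map_one]
    · rintro _ ⟨b, hb, rfl⟩ h1
      obtain ⟨i, hi⟩ : f b ∈ PS := hT b (hAT hb)
      refine (exists_jP i (hi ▸ h1) (by rw [hi, ← map_mul, hA2 b hb, map_one]) ?_).imp
        fun a ha => hi ▸ ha
      simp only [allowedB, Bool.or_eq_true, Bool.not_eq_true']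
      cases hl : linN.testBit i.val with
      | false => exact Or.inr rfl
      | true => exact Or.inl (hflag i (hi ▸ ⟨b, rfl⟩) hl)
  have hcomm : ∀ a ∈ A, ∀ b ∈ A, a * b = b * a := fun a ha b hb => by
    have h1 := hA2 _ (A.mul_mem ha hb)
    rwa [mul_eq_one_iff_eq_inv, mul_inv_rev, inv_eq_of_mul_eq_one_right (hA2 _ ha),
      inv_eq_of_mul_eq_one_right (hA2 _ hb)] at h1
  obtain ⟨hA0, hfixB⟩ : (∀ g, g ∈ S ↔ inA0 g) ∧ ∀ v : W, (∀ g ∈ S, g v = v) → inB0 v := by
    rcases elem_bound hSel with h | h | ⟨h32, L, hL, hLfix⟩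
    · omega
    · exact h
    · exfalso
      have hle : Nat.card {q : ↥Q // (q : ↥(CG z)) ∈ A} ≤ 2 * L.length := by
        have h1 : Nat.card {q : ↥Q // (q : ↥(CG z)) ∈ A} ≤ Nat.card {q : ↥Q // (pr' q).val ∈ L} :=
          Nat.card_le_card_of_injective
            (fun q => ⟨q.1, hLfix _ (by
              rintro _ ⟨b, hb, rfl⟩; exact fix_of_comm hM' (hcomm b hb _ q.2))⟩)
            fun a b e => Subtype.ext (congrArg (fun x : {q : ↥Q // (pr' q).val ∈ L} => x.1) e)
        rw [card_subset hM' (fun v => v.val ∈ L)] at h1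
        refine h1.trans (Nat.mul_le_mul_left 2 ?_)
        rw [Nat.card_eq_fintype_card, Fintype.card_subtype]
        refine (Finset.card_le_card_of_injOn (fun v => v.val) (t := L.toFinset) (fun v hv => ?_)
          Fin.val_injective.injOn).trans (List.toFinset_card_le L)
        simp only [Finset.coe_filter, Finset.mem_univ, true_and] at hv
        simpa using hv
      have e : Nat.card {q : ↥Q // (q : ↥(CG z)) ∈ A} = 2 ^ 7 := by
        rw [← hAQ]
        exact Nat.card_congr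
          { toFun := fun q => ⟨q.1.1, q.2, q.1.2⟩
            invFun := fun h => ⟨⟨h.1, h.2.2⟩, h.2.1⟩
            left_inv := fun _ => rfl
            right_inv := fun _ => rfl }
      omega
  have hsub : ∀ q : ↥Q, (q : ↥(CG z)) ∈ A → inB0 (pr' q) := fun q hq => hfixB _ (by
    rintro _ ⟨b, hb, rfl⟩; exact fix_of_comm hM' (hcomm b hb _ hq))
  have memQ : ∀ q : ↥Q, (q : ↥(CG z)) ∈ A ↔ inB0 (pr' q) := by
    refine fun q => ⟨hsub q, fun hq => ?_⟩
    have heq : {q : ↥Q | (q : ↥(CG z)) ∈ A} = {q : ↥Q | inB0 (pr' q)} := by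
      refine Set.eq_of_subset_of_ncard_le (fun q hq => hsub q hq) ?_
      rw [← Nat.card_coe_set_eq, ← Nat.card_coe_set_eq]
      change Nat.card {q : ↥Q // inB0 (pr' q)} ≤ Nat.card {q : ↥Q // (q : ↥(CG z)) ∈ A}
      rw [card_subset hM', card_B0, show 2 * 64 = 2 ^ 7 by norm_num, ← hAQ]
      exact le_of_eq (Nat.card_congr
          { toFun := fun h => ⟨⟨h.1, h.2.2⟩, h.2.1⟩
            invFun := fun q => ⟨q.1.1, q.2, q.1.2⟩
            left_inv := fun _ => rfl
            right_inv := fun _ => rfl })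
    exact (Set.ext_iff.1 heq q).2 hq
  refine ⟨pr', act', T, A, hM', hc', hAT, hA2, hAc, hAQ, huniq, fun h => ?_, memQ,
    fun a ha => (hA0 a).2 ha⟩
  refine ⟨fun hh => ⟨(hA0 _).1 ⟨h, hh, rfl⟩, fun q hq => hcomm h hh _ ((memQ q).2 hq)⟩, ?_⟩
  rintro ⟨h1, h2⟩
  obtain ⟨a, ha, hfa⟩ := (hA0 _).2 h1
  have hq : a⁻¹ * h ∈ Q := (fker _).1 (by rw [map_mul, map_inv]; exact inv_mul_eq_one.2 hfa)
  have hB : inB0 (pr' ⟨_, hq⟩) := inB0_of_orth fun i => by
    obtain ⟨p, hp⟩ := hM'.pr_surj (bv i.val)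
    rw [← hp]
    have hpB : inB0 (pr' p) := hp.symm ▸ inB0_bv i
    refine (comm_iff_orth hM' p ⟨_, hq⟩).1 ?_
    have e1 := hcomm a ha _ ((memQ p).2 hpB)
    have e2 : a⁻¹ * (p : ↥(CG z)) = p * a⁻¹ := (Commute.inv_left e1).eq
    calc (p : ↥(CG z)) * (a⁻¹ * h) = a⁻¹ * (p * h) := by rw [← mul_assoc, ← e2, mul_assoc]
      _ = a⁻¹ * h * p := by rw [← h2 p hpB, mul_assoc]
  have := A.mul_mem ha ((memQ ⟨_, hq⟩).2 hB)
  rwa [show a * (a⁻¹ * h) = h from mul_inv_cancel_left a h] at this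

namespace Std

variable {T : Sylow 2 ↥(CG z)} {A : Subgroup ↥(CG z)}

theorem comm (S : Std z Q pr act T A) {a b : ↥(CG z)} (ha : a ∈ A) (hb : b ∈ A) :
    a * b = b * a := by
  have h1 := S.sq _ (A.mul_mem ha hb)
  rwa [mul_eq_one_iff_eq_inv, mul_inv_rev, inv_eq_of_mul_eq_one_right (S.sq _ ha),
    inv_eq_of_mul_eq_one_right (S.sq _ hb)] at h1

theorem inA0_fix (S : Std z Q pr act T A) {h : ↥(CG z)}
    (hf : ∀ v, inB0 v → fhom act h v = v) : inA0 (fhom act h) :=
  inA0_of_fix (fhom_range S.model).2 ⟨h, rfl⟩ (fhom_good S.model h) hf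

theorem mem_of_comm (S : Std z Q pr act T A) {h : ↥(CG z)} (hc : ∀ a ∈ A, h * a = a * h) :
    h ∈ A := by
  refine (S.mem_iff h).2 ⟨S.inA0_fix fun v hv => ?_, fun q hq => hc _ ((S.memQ q).2 hq)⟩
  obtain ⟨q, rfl⟩ := S.model.pr_surj v
  exact fix_of_comm S.model (hc _ ((S.memQ q).2 hv))

theorem conj_mem (S : Std z Q pr act T A) {n h : ↥(CG z)}
    (hn : ∀ v, inB0 (fhom act n v) ↔ inB0 v) (hh : h ∈ A) : n * h * n⁻¹ ∈ A := by
  obtain ⟨h1, h2⟩ := (S.mem_iff h).1 hh
  refine (S.mem_iff _).2 ⟨S.inA0_fix fun v hv => ?_, fun q hq => ?_⟩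
  · rw [map_mul, map_mul, map_inv]
    simp only [Equiv.Perm.mul_apply]
    have hv' : inB0 ((fhom act n)⁻¹ v) := (hn _).1 (by simpa using hv)
    rw [(b0_spec hv').2.1 _ h1]
    simp
  · obtain ⟨r, hr, hpr⟩ := act_pr' S.model n⁻¹ q
    have hB : inB0 (pr r) := (hn _).1 (by
      rw [hpr, map_inv]; simpa using hq)
    have := h2 r hB
    rw [hr] at this
    calc n * h * n⁻¹ * q = n * (h * (n⁻¹ * q * n⁻¹⁻¹)) * n⁻¹ := by group
      _ = n * ((n⁻¹ * q * n⁻¹⁻¹) * h) * n⁻¹ := by rw [this]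
      _ = _ := by group

theorem mem_normalizer (S : Std z Q pr act T A) {n : ↥(CG z)}
    (hn : ∀ v, inB0 (fhom act n v) ↔ inB0 v) : n ∈ Subgroup.normalizer (A : Set ↥(CG z)) := by
  refine Subgroup.mem_normalizer_iff.2 fun h => ⟨S.conj_mem hn, fun hh => ?_⟩
  have := S.conj_mem (n := n⁻¹) (fun v => by rw [map_inv, ← hn ((fhom act n)⁻¹ v)]; simp) hh
  simpa [mul_assoc] using this

theorem Q_le_normalizer (S : Std z Q pr act T A) :
    Q ≤ Subgroup.normalizer (A : Set ↥(CG z)) := fun q hq =>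
  S.mem_normalizer fun v => by rw [(fhom_ker S.model q).2 hq]; rfl

/-- The orbit of a member outside `Q` under the normalizer. -/
theorem orbit (S : Std z Q pr act T A) {a : ↥(CG z)} (ha : a ∈ A) (haQ : a ∉ Q) :
    240 ∣ {b | ∃ n ∈ Subgroup.normalizer (A : Set ↥(CG z)), n * a * n⁻¹ = b}.ncard := by
  classical
  set f := fhom act
  set K := Subgroup.normalizer (A : Set ↥(CG z))
  letI i1 : MulAction ↥K ↥(CG z) :=
    MulAction.compHom _ (ConjAct.toConjAct.toMonoidHom.comp K.subtype)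
  have hs1 : ∀ (n : ↥K) (b : ↥(CG z)), n • b = (n : ↥(CG z)) * b * (n : ↥(CG z))⁻¹ := fun n b => rfl
  letI i2 : MulAction ↥K (Equiv.Perm W) :=
    MulAction.compHom _ (ConjAct.toConjAct.toMonoidHom.comp (f.comp K.subtype))
  have hs2 : ∀ (n : ↥K) (g : Equiv.Perm W), n • g = f n * g * (f n)⁻¹ := fun n b => rfl
  have hO : {b | ∃ n ∈ K, n * a * n⁻¹ = b} = MulAction.orbit ↥K a := by
    ext b
    exact ⟨fun ⟨n, hn, e⟩ => ⟨⟨n, hn⟩, e⟩, fun ⟨n, e⟩ => ⟨n, n.2, e⟩⟩
  rw [hO, ← MulAction.index_stabilizer]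
  set Ka := MulAction.stabilizer ↥K a
  have hfa : inA0 (f a) := ((S.mem_iff a).1 ha).1
  have hfa1 : f a ≠ 1 := fun e => haQ ((fhom_ker S.model a).1 e)
  refine Nat.Coprime.mul_dvd_of_dvd_of_dvd (show Nat.Coprime 15 16 by norm_num) ?_ ?_
  · have hle : Ka ≤ MulAction.stabilizer ↥K (f a) := by
      intro n hn
      rw [MulAction.mem_stabilizer_iff, hs2, ← map_inv, ← map_mul, ← map_mul]
      exact congrArg f hn
    refine dvd_trans ?_ (Subgroup.index_dvd_of_le hle)
    rw [MulAction.index_stabilizer]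
    have e : MulAction.orbit ↥K (f a) = (A0 : Set (Equiv.Perm W)) \ {1} := by
      ext g
      constructor
      · rintro ⟨n, rfl⟩
        show n • f a ∈ _
        rw [hs2, ← map_inv, ← map_mul, ← map_mul]
        refine ⟨((S.mem_iff _).1 ((Subgroup.mem_normalizer_iff.1 n.2 a).1 ha)).1, fun e => hfa1 ?_⟩
        rw [Set.mem_singleton_iff, map_mul, map_mul, map_inv, conj_eq_one_iff] at e
        exact e
      · rintro ⟨hg, hg1⟩
        obtain ⟨m, hm, rfl⟩ := exists_mover hfa hg hfa1 hg1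
        obtain ⟨n, rfl⟩ := hm.sq _ (fhom_range S.model).1
        exact ⟨⟨n, S.mem_normalizer hm.stab⟩, rfl⟩
    rw [e, Set.ncard_diff_singleton_of_mem (show (1 : Equiv.Perm W) ∈ (A0 : Set _) from A0.one_mem),
      ← Nat.card_coe_set_eq]
    show 15 ∣ Nat.card A0 - 1
    rw [card_A0]
  · set Qk := Q.subgroupOf K
    set J := Ka ⊔ Qk
    have hJ : Ka.relIndex J * Nat.card ↥(Ka ⊓ Qk) = Nat.card ↥Qk := by
      have e1 := Subgroup.relIndex_mul_relIndex ⊥ (Ka ⊓ Qk) Ka bot_le inf_le_left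
      have e2 := Subgroup.relIndex_mul_relIndex ⊥ Qk J bot_le le_sup_right
      have e3 := Subgroup.relIndex_mul_relIndex ⊥ Ka J bot_le le_sup_left
      simp only [Subgroup.relIndex_bot_left] at e1 e2 e3
      rw [Subgroup.inf_relIndex_left] at e1
      have e4 : Qk.relIndex J = Qk.relIndex Ka := Subgroup.relIndex_sup_right Ka Qk
      rw [e4, ← e3, ← e1] at e2
      have hpos : 0 < Qk.relIndex Ka := Nat.pos_of_ne_zero Subgroup.FiniteIndex.index_ne_zero
      exact Nat.eq_of_mul_eq_mul_right hpos (by rw [e2]; ring)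
    have hQk : Nat.card ↥Qk = 2 ^ 13 := by
      rw [Nat.card_congr (Subgroup.subgroupOfEquivOfLe S.Q_le_normalizer).toEquiv,
        ← Nat.card_congr (Equiv.subtypeUnivEquiv (p := fun q : ↥Q => (fun _ => True) (pr q))
          fun _ => trivial), card_subset S.model (fun _ => True),
        Nat.card_congr (Equiv.subtypeUnivEquiv fun _ => trivial), Nat.card_fin]
      norm_num
    have hinf : Nat.card ↥(Ka ⊓ Qk) ≤ 512 := by
      have h1 : Nat.card ↥(Ka ⊓ Qk) ≤ Nat.card {q : ↥Q // f a (pr q) = pr q} := by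
        refine Nat.card_le_card_of_injective
          (fun n => ⟨⟨(n : ↥K), Subgroup.mem_subgroupOf.1 n.2.2⟩, fix_of_comm S.model ?_⟩)
          fun m n e => Subtype.ext (Subtype.ext (congrArg
            (fun x : {q : ↥Q // f a (pr q) = pr q} => ((x.1 : ↥Q) : ↥(CG z))) e))
        have : (n : ↥K) ∈ Ka := n.2.1
        rw [MulAction.mem_stabilizer_iff, hs1, mul_inv_eq_iff_eq_mul] at this
        exact this.symm
      rw [card_subset S.model (fun v => f a v = v)] at h1
      have := card_fix_le hfa hfa1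
      omega
    rw [← Subgroup.relIndex_mul_index (le_sup_left : Ka ≤ J)]
    refine Dvd.dvd.mul_right ?_ _
    rw [hQk] at hJ
    obtain ⟨j, hj, hje⟩ := (Nat.dvd_prime_pow Nat.prime_two).1 (Dvd.intro _ hJ)
    rw [hje] at hJ ⊢
    refine (show 16 = 2 ^ 4 by norm_num) ▸ Nat.pow_dvd_pow 2 ?_
    by_contra hlt
    have h8 : 2 ^ j ≤ 2 ^ 3 := Nat.pow_le_pow_right (by norm_num) (by omega)
    have := Nat.mul_le_mul h8 hinf
    omega

theorem zero_cases (S : Std z Q pr act T A) {q : ↥Q} (h : pr q = 0) :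
    ((q : ↥(CG z)) : G) = 1 ∨ ((q : ↥(CG z)) : G) = z := (S.model.pr_zero q).1 h

theorem other_iff (S : Std z Q pr act T A) {q : ↥Q} (hq : inB0 (pr q)) :
    Other z ((q : ↥(CG z)) : G) ↔ inOne 0 (pr q) := by
  by_cases h0 : pr q = 0
  · rw [h0]
    refine iff_of_false ?_ (by decide +kernel)
    rintro ⟨h1, h2⟩
    rcases S.zero_cases h0 with e | e
    · exact h1 e
    · exact h2 (isConj_iff.2 ⟨1, by simp [e]⟩)
  · rw [Other, S.cls.two q h0 (b0_spec hq).1, not_not]
    exact and_iff_right fun e => h0 ((S.model.pr_zero q).2 (Or.inl e))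

/-- A set in `A ∩ Q` given by a condition on the vectors. -/
theorem ncard_eq (S : Std z Q pr act T A) (p : G → Prop) (P : W → Prop)
    (h : ∀ q : ↥Q, inB0 (pr q) → (p ((q : ↥(CG z)) : G) ↔ P (pr q))) :
    {x | x ∈ A.map (CG z).subtype ∧ x ∈ Q.map (CG z).subtype ∧ p x}.ncard =
      2 * Nat.card {v : W // inB0 v ∧ P v} := by
  have e : {x | x ∈ A.map (CG z).subtype ∧ x ∈ Q.map (CG z).subtype ∧ p x} =
      (fun q : ↥Q => ((q : ↥(CG z)) : G)) '' {q | inB0 (pr q) ∧ P (pr q)} := by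
    ext x
    constructor
    · rintro ⟨hxA, ⟨c, hc, rfl⟩, hp⟩
      have hcA : c ∈ A := (Subgroup.mem_map_iff_mem (Subgroup.subtype_injective _)).1 hxA
      exact ⟨⟨c, hc⟩, ⟨(S.memQ ⟨c, hc⟩).1 hcA, (h ⟨c, hc⟩ ((S.memQ ⟨c, hc⟩).1 hcA)).1 hp⟩, rfl⟩
    · rintro ⟨q, ⟨h1, h2⟩, rfl⟩
      exact ⟨⟨q.1, (S.memQ q).2 h1, rfl⟩, ⟨q.1, q.2, rfl⟩, (h q h1).2 h2⟩
  have hinj : Function.Injective fun q : ↥Q => ((q : ↥(CG z)) : G) :=
    Subtype.val_injective.comp Subtype.val_injective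
  rw [e, Set.ncard_image_of_injective _ hinj,
    ← Nat.card_coe_set_eq]
  exact card_subset S.model (fun v => inB0 v ∧ P v)

theorem top (S : Std z Q pr act T A) (hF : IsOfLargeFischerTypeAt z Q) :
    Top (A.map (CG z).subtype) ∧ ∃ P : Sylow 2 G, A.map (CG z).subtype ≤ (P : Subgroup G) ∧
      ∀ x ∈ (P : Subgroup G), x * z = z * x := by
  obtain ⟨P, hP⟩ := exists_sylow hF T
  have hle : A.map (CG z).subtype ≤ (P : Subgroup G) := hP ▸ Subgroup.map_mono S.le
  have hel : IsElementaryAbelian 2 (A.map (CG z).subtype) := by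
    refine isElementaryAbelian_map _ (isElementaryAbelian_iff.2 ⟨fun a ha b hb => S.comm ha hb,
      fun a ha => ?_⟩)
    rw [pow_two]; exact S.sq a ha
  refine ⟨⟨hel, by rw [Subgroup.card_map_of_injective (Subgroup.subtype_injective _), S.card],
    P, hle, fun B hB he => ?_⟩, P, hle, fun x hx => ?_⟩
  · obtain ⟨C, hCT, rfl⟩ : ∃ C, C ≤ (T : Subgroup ↥(CG z)) ∧ C.map (CG z).subtype = B := by
      refine ⟨B.comap (CG z).subtype, fun x hx => ?_, Subgroup.map_comap_eq_self fun b hb => ?_⟩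
      · have := hB hx
        rw [← hP] at this
        exact (Subgroup.mem_map_iff_mem (Subgroup.subtype_injective _)).1 this
      · have := hB hb
        rw [← hP] at this
        obtain ⟨c, -, rfl⟩ := this
        exact ⟨c, rfl⟩
    have hC := isElementaryAbelian_of_map _ (Subgroup.subtype_injective _) he
    have hsq : ∀ b ∈ C, b * b = 1 := fun b hb => by rw [← pow_two]; exact hC.2 b hb
    rw [Subgroup.card_map_of_injective (Subgroup.subtype_injective _)]
    refine ⟨?_, fun hc => by rw [S.uniq C hCT hsq hc.ge]⟩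
    by_contra hlt
    have := S.uniq C hCT hsq (le_of_not_ge hlt)
    rw [this, S.card] at hlt
    omega
  · rw [← hP] at hx
    obtain ⟨c, -, rfl⟩ := hx
    exact Subgroup.mem_centralizer_singleton_iff.1 c.2

theorem notSub (S : Std z Q pr act T A) (hF : IsOfLargeFischerTypeAt z Q) :
    ∃ s ∈ A.map (CG z).subtype, IsConj z s ∧ ∃ d ∈ A.map (CG z).subtype,
      d ∈ Q.map (CG z).subtype ∧ Other z d ∧ ¬ InQ z (Q.map (CG z).subtype) s d := by
  classical
  have hS := setting hF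
  have hd := c_diag
  simp only [Bool.and_eq_true, beq_iff_eq, List.all_eq_true, List.mem_range, List.contains_iff_mem,
    Bool.not_eq_true'] at hd
  obtain ⟨⟨⟨⟨⟨⟨⟨⟨hgl, hord⟩, hfix⟩, hmove⟩, h170⟩, h2078⟩, h1054⟩, hs170⟩, ho170⟩ := hd
  obtain ⟨q, hq⟩ := S.model.pr_surj 170
  have hqB : inB0 (pr q) := by rw [hq]; exact h170
  have hq0 : pr q ≠ 0 := by rw [hq]; decide
  have hqz : IsConj z ((q : ↥(CG z)) : G) := by
    rw [S.cls.two q hq0 (b0_spec hqB).1, hq]
    intro h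
    have := (one_bit 170).trans (decide_eq_true h)
    rw [show ((170 : W).val) = 170 from rfl] at this
    rw [this] at ho170
    exact Bool.noConfusion ho170
  set QG := Q.map (CG z).subtype
  set s : G := ((q : ↥(CG z)) : G) with hsdef
  refine ⟨s, ⟨q.1, (S.memQ q).2 hqB, rfl⟩, hqz, ?_⟩
  by_contra hne
  push Not at hne
  obtain ⟨g, hg⟩ := isConj_iff.1 hqz
  have hsQ : s ∈ QG := ⟨q.1, q.2, rfl⟩
  have hs1 : s ≠ z := fun e => hq0 ((S.model.pr_zero q).2 (Or.inr e))
  set U := QG.map (MulAut.conj g).toMonoidHom with hUdef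
  have hU : LargeExtraspecial.Setting U s := hg ▸ hS.conj g
  have hzU : z ∈ U := LargeExtraspecial.mem_conj_of_conj_mem hS
    (by rw [card_map hF.1.2.2.2.1]; norm_num) g (hg.symm ▸ hsQ) (hg.symm ▸ hs1)
  have hone : ∀ r : ↥Q, inB0 (pr r) → inOne 0 (pr r) → ((r : ↥(CG z)) : G) ∈ U := by
    intro r hrB hr1
    obtain ⟨k, hk, hkd⟩ := hne _ ⟨r.1, (S.memQ r).2 hrB, rfl⟩ ⟨r.1, r.2, rfl⟩ ((S.other_iff hrB).2 hr1)
    have hc : (g⁻¹ * k) * z = z * (g⁻¹ * k) := by
      have := congrArg (fun y => g⁻¹ * y * k) (hk.trans hg.symm)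
      simpa [mul_assoc] using this
    have := (hS.normalized _ hc _).1 hkd
    exact ⟨_, this, by simp [mul_assoc]⟩
  have hsl := c_spanList
  simp only [Bool.and_eq_true, List.all_eq_true, List.contains_iff_mem] at hsl
  have hspan : ∀ l : List ℕ, (∀ e ∈ l, oneN.testBit e = true ∧ e ∈ spanN b0Basis) →
      ∀ n ∈ spanN l, ∀ r : ↥Q, (pr r).val = n → ((r : ↥(CG z)) : G) ∈ U := by
    intro l
    induction l with
    | nil =>
      intro _ n hn r hr
      obtain rfl : n = 0 := by simpa [spanN] using hn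
      rcases S.zero_cases (Fin.ext hr) with e | e <;> rw [e]
      · exact U.one_mem
      · exact hzU
    | cons e l ih =>
      intro hl n hn r hr
      have hl' := fun x hx => hl x (List.mem_cons_of_mem _ hx)
      simp only [spanN, List.mem_append, List.mem_map] at hn
      rcases hn with hn | ⟨m, hm, rfl⟩
      · exact ih hl' n hn r hr
      · obtain ⟨he1, heB⟩ := hl e (List.mem_cons_self ..)
        have he4 : e < 4096 := by
          have := c_b0
          simp only [Bool.and_eq_true, List.all_eq_true, decide_eq_true_eq] at this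
          exact (this.1.1.1 e heB).1.1.1
        obtain ⟨b, hb⟩ := S.model.pr_surj ⟨e, he4⟩
        have hb1 : inOne 0 (pr b) := by
          rw [hb]; exact of_decide_eq_true ((one_bit ⟨e, he4⟩).symm.trans he1)
        have hbU := hone b (by rw [hb]; exact heB) hb1
        have hrb := ih hl' m hm (r * b) (by
          rw [S.model.pr_mul, vadd_val, hr, hb]
          show (m ^^^ e) ^^^ e = m
          rw [Nat.xor_assoc, Nat.xor_self, Nat.xor_zero])
        have := U.mul_mem hrb (U.inv_mem hbU)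
        simpa using this
  have hAQU : ∀ r : ↥Q, inB0 (pr r) → ((r : ↥(CG z)) : G) ∈ U := fun r hr =>
    hspan _ (fun e he => hsl.1 e he) _ (hsl.2 _ hr) r rfl
  -- the two subgroups meet in the part of `A`
  set I := QG ⊓ U
  have hsub : ∀ x ∈ (A ⊓ Q).map (CG z).subtype, x ∈ I := by
    rintro _ ⟨c, ⟨h1, h2⟩, rfl⟩
    exact ⟨⟨c, h2, rfl⟩, hAQU ⟨c, h2⟩ ((S.memQ ⟨c, h2⟩).1 h1)⟩
  obtain ⟨-, hIle, -⟩ := pair_structure hF ⟨(q : ↥(CG z)).2, q.2⟩ hs1 hg _ _ rfl rfl
  have hI : (A ⊓ Q).map (CG z).subtype = I := Subgroup.eq_of_le_of_card_ge hsub (by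
    rw [Subgroup.card_map_of_injective (Subgroup.subtype_injective _), S.inter]
    exact hIle)
  -- an element fixing `s` which moves the space
  obtain ⟨m, hm6, hme⟩ := exists_GL6 hgl
  have hpow : m ^ 3 = 1 := Equiv.ext fun n => by
    refine congrFun (isAdd_ext (GL6.pow_mem hm6 3).1.add isAdd_id fun j => Fin.ext ?_) n
    rw [iterate_pow hme]
    exact hord j.val j.isLt
  obtain ⟨h, hh⟩ : m ∈ (fhom act).range := by
    have : m = m ^ 2 * m ^ 2 := by
      rw [← pow_add, show 2 + 2 = 3 + 1 from rfl, pow_succ, hpow, one_mul]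
    rw [this]
    exact (fhom_range S.model).1 _ (GL6.pow_mem hm6 2)
  have hhq : fhom act h (pr q) = pr q := by
    rw [hh, hme, hq]; exact Fin.ext hfix
  obtain ⟨h', hh', hcs⟩ : ∃ h', fhom act h' = m ∧ ((h' : ↥(CG z)) : G) * s = s * (h' : G) := by
    rcases flip S.model (x := h) (b := q) hhq with e | e
    · exact ⟨h, hh, congrArg Subtype.val e⟩
    · obtain ⟨c, hc, hcq⟩ := LargeExtraspecial.exists_conj_eq_mul hS.extraspecial hS.mem_iff hsQ
        (fun hz => by
          rcases (hS.mem_iff s).1 hz with e1 | e1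
          · exact hq0 ((S.model.pr_zero q).2 (Or.inl e1))
          · exact hs1 e1)
      obtain ⟨c', hc', rfl⟩ := hc
      refine ⟨c' * h, by rw [map_mul, (fhom_ker S.model c').2 hc', one_mul, hh], ?_⟩
      have e' : (h : G) * s = s * (h : G) * z := congrArg Subtype.val e
      have hz1 : (h : G) * z = z * (h : G) := Subgroup.mem_centralizer_singleton_iff.1 h.2
      have hz2 : (c' : G) * z = z * (c' : G) := Subgroup.mem_centralizer_singleton_iff.1 c'.2
      have hcq' : (c' : G) * s = z * s * (c' : G) := mul_inv_eq_iff_eq_mul.1 hcq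
      show (c' : G) * (h : G) * s = s * ((c' : G) * (h : G))
      calc (c' : G) * (h : G) * s = (c' : G) * s * (z * (h : G)) := by
            rw [mul_assoc, e', mul_assoc s, hz1, mul_assoc (c' : G)]
        _ = z * (s * z) * ((c' : G) * (h : G)) := by
            rw [hcq', mul_assoc (z * s), ← mul_assoc (c' : G) z, hz2]; group
        _ = s * ((c' : G) * (h : G)) := by rw [hS.comm hsQ, ← mul_assoc z, hS.z_mul_z, one_mul]
  obtain ⟨r, hr⟩ := S.model.pr_surj 2078
  have hrI : ((r : ↥(CG z)) : G) ∈ I := hI ▸ ⟨r.1, ⟨(S.memQ r).2 (by rw [hr]; exact h2078), r.2⟩, rfl⟩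
  obtain ⟨r', hr', hpr'⟩ := act_pr' S.model h' r
  have hr'I : ((r' : ↥(CG z)) : G) ∈ I := by
    rw [hr']
    exact ⟨(hS.normalized _ (Subgroup.mem_centralizer_singleton_iff.1 h'.2) _).1 hrI.1,
      (hU.normalized _ hcs _).1 hrI.2⟩
  rw [← hI] at hr'I
  have hB : inB0 (pr r') :=
    (S.memQ r').1 ((Subgroup.mem_map_iff_mem (Subgroup.subtype_injective _)).1 hr'I).1
  rw [hpr', hh', hme, hr] at hB
  have hval : (app diagC (2078 : W)).val = 1054 := hmove
  have h2 : (app diagC (2078 : W)).val ∈ spanN b0Basis := hB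
  rw [hval] at h2
  simp [h2] at h1054

theorem facts (S : Std z Q pr act T A) (hF : IsOfLargeFischerTypeAt z Q) :
    Facts z Q (A.map (CG z).subtype) := by
  classical
  obtain ⟨hTop, P, hAP, hPz⟩ := S.top hF
  have hzA : zC z ∈ A := (S.memQ ⟨zC z, S.model.mem⟩).2 (by
    rw [(pr_zero' S.model _).2 (Or.inr rfl)]; exact inB0_zero)
  have hmem : ∀ {c : ↥(CG z)}, (c : G) ∈ A.map (CG z).subtype ↔ c ∈ A :=
    Subgroup.mem_map_iff_mem (Subgroup.subtype_injective _)
  have hone : ∀ v : W, oneN.testBit v.val = true ↔ inOne 0 v := fun v => by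
    rw [one_bit, decide_eq_true_eq]
  refine ⟨⟨hTop, setting hF, ⟨zC z, hzA, rfl⟩, ?_, ?_, ?_, ?_, S.notSub hF, ?_⟩, ⟨P, hAP, hPz⟩, ?_⟩
  · rw [← Subgroup.map_inf _ _ _ (Subgroup.subtype_injective _),
      Subgroup.card_map_of_injective (Subgroup.subtype_injective _), S.inter]
  · rw [S.ncard_eq _ (inOne 0) (fun q hq => S.other_iff hq),
      card_B0_sub (inOne 0) (fun u => oneN.testBit u) hone, c_one]
  · rintro a haA haQ ha b hbA hbQ hb
    obtain ⟨x, hx, rfl⟩ := haQ
    obtain ⟨y, hy, rfl⟩ := hbQ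
    exact S.cls.one ⟨x, hx⟩ ⟨y, hy⟩ ((S.other_iff ((S.memQ ⟨x, hx⟩).1 (hmem.1 haA))).1 ha)
      ((S.other_iff ((S.memQ ⟨y, hy⟩).1 (hmem.1 hbA))).1 hb)
  · rintro _ ⟨a, ha, rfl⟩ haQ
    have haQ' : a ∉ Q := fun h => haQ ⟨a, h, rfl⟩
    have hinj : Function.Injective (CG z).subtype := Subgroup.subtype_injective _
    have e : {b | ∃ m ∈ Subgroup.normalizer ((A.map (CG z).subtype : Subgroup G) : Set G),
        m * z = z * m ∧ m * (CG z).subtype a * m⁻¹ = b} =
        (CG z).subtype '' {b | ∃ n ∈ Subgroup.normalizer (A : Set ↥(CG z)), n * a * n⁻¹ = b} := by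
      ext b
      constructor
      · rintro ⟨m, hm, hmz, rfl⟩
        let n : ↥(CG z) := ⟨m, Subgroup.mem_centralizer_singleton_iff.2 hmz⟩
        refine ⟨n * a * n⁻¹, ⟨n, Subgroup.mem_normalizer_iff.2 fun x => ?_, rfl⟩, rfl⟩
        rw [← hmem, ← hmem (c := n * x * n⁻¹)]
        exact Subgroup.mem_normalizer_iff.1 hm (x : G)
      · rintro ⟨_, ⟨n, hn, rfl⟩, rfl⟩
        refine ⟨(n : G), Subgroup.mem_normalizer_iff.2 fun x => ⟨?_, ?_⟩,
          Subgroup.mem_centralizer_singleton_iff.1 n.2, rfl⟩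
        · rintro ⟨c, hc, rfl⟩
          exact ⟨n * c * n⁻¹, (Subgroup.mem_normalizer_iff.1 hn c).1 hc, rfl⟩
        · rintro ⟨c, hc, e⟩
          refine ⟨n⁻¹ * c * n⁻¹⁻¹, (Subgroup.mem_normalizer_iff.1 (inv_mem hn) c).1 hc, ?_⟩
          simp only [map_mul, map_inv, e, Subgroup.coe_subtype, inv_inv]
          group
    rw [e, Set.ncard_image_of_injective _ hinj]
    exact S.orbit ha haQ'
  · rintro _ hwA ⟨w, hw, rfl⟩ hwo
    have hwB : inB0 (pr ⟨w, hw⟩) := (S.memQ ⟨w, hw⟩).1 (hmem.1 hwA)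
    have hw1 : inOne 0 (pr ⟨w, hw⟩) := (S.other_iff hwB).1 hwo
    have hh : ∀ q : ↥Q, inB0 (pr q) → ((Other z ((q : ↥(CG z)) : G) ∧
        Other z (((q : ↥(CG z)) : G) * (CG z).subtype w)) ↔
        (inOne 0 (pr q) ∧ inOne 0 (vadd (pr q) (pr ⟨w, hw⟩)))) := by
      intro q hq
      rw [S.other_iff hq, ← S.model.pr_mul]
      refine and_congr_right fun _ => ?_
      exact S.other_iff (q := q * ⟨w, hw⟩) (by
        rw [S.model.pr_mul]; exact ((b0_spec hq).2.2 _ hwB).2)
    rw [S.ncard_eq _ (fun v => inOne 0 v ∧ inOne 0 (vadd v (pr ⟨w, hw⟩))) hh,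
      card_B0_sub _ (fun u => oneN.testBit u && oneN.testBit (u ^^^ (pr ⟨w, hw⟩).val)) (fun v => by
        rw [Bool.and_eq_true, hone, ← vadd_val, hone])]
    have := c_partners
    simp only [List.all_eq_true, Bool.or_eq_true, Bool.not_eq_true', beq_iff_eq] at this
    rcases this _ hwB with h | h
    · rw [(hone _).2 hw1] at h; exact Bool.noConfusion h
    · rw [h]
  · intro x hx
    have hxz : x * z = z * x := (Subgroup.mem_centralizer_iff.1 hx z ⟨zC z, hzA, rfl⟩).symm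
    let c : ↥(CG z) := ⟨x, Subgroup.mem_centralizer_singleton_iff.2 hxz⟩
    exact ⟨c, S.mem_of_comm (h := c) fun a ha => Subtype.ext
      (Subgroup.mem_centralizer_iff.1 hx (a : G) ⟨a, ha, rfl⟩).symm, rfl⟩

end Std

/-- The local facts from the model and the classes. -/
theorem exists_facts_of_model (hF : IsOfLargeFischerTypeAt z Q) (hM : Model z Q pr act)
    (hc : ClassData z Q pr) : ∃ A, Facts z Q A := by
  obtain ⟨pr', act', T, A, hS⟩ := exists_std hM hc
  exact ⟨_, hS.facts hF⟩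

end CfsgLib.LargeFischer45
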