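import Cfsg.Agent.LargeFischer45.Counting

/-!
Large Fischer type: the pair counts on the 276 members, and the common neighbours of two
non-adjacent members, obtained by moving their product to `z`.
-/

set_option autoImplicit false

namespace CfsgLib.LargeFischer45

open Finset Cfsg

variable {G : Type*} [Group G] [Finite G] {z : G} {Q A : Subgroup G}

/-- The number of ways to write `a` with members. -/
noncomputable def ways {G : Type*} [Group G] (D : Finset G) (a : G) : ℕ :=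
  {u | u ∈ D ∧ a * u ∈ D}.ncard

theorem ways_def {G : Type*} [Group G] [DecidableEq G] (D : Finset G) (a : G) :
    ways D a = (D.filter fun u => a * u ∈ D).card := by
  rw [ways, ← Set.ncard_coe_finset, coe_filter]

theorem ways_conj {m : G} (hm : m ∈ Subgroup.normalizer (A : Set G)) (a : G) :
    ways (dSet z Q A) (m * a * m⁻¹) = ways (dSet z Q A) a := by
  classical
  rw [ways_def, ways_def]
  refine card_bij' (fun u _ => m⁻¹ * u * m) (fun u _ => m * u * m⁻¹) ?_ ?_ ?_ ?_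
  · intro u hu
    obtain ⟨h1, h2⟩ := mem_filter.1 hu
    refine mem_filter.2 ⟨by simpa using dSet_conj (inv_mem hm) h1, ?_⟩
    simpa [mul_assoc] using dSet_conj (inv_mem hm) h2
  · intro u hu
    obtain ⟨h1, h2⟩ := mem_filter.1 hu
    refine mem_filter.2 ⟨dSet_conj hm h1, ?_⟩
    simpa [mul_assoc] using dSet_conj hm h2
  · intro u _; simp [mul_assoc]
  · intro u _; simp [mul_assoc]

theorem Local.sq (L : Local z Q A) {a : G} (ha : a ∈ A) : a * a = 1 := by
  simpa [pow_two] using (LocalP.isElementaryAbelian_iff.1 L.top.elem).2 a ha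

theorem Local.comm (L : Local z Q A) {a b : G} (ha : a ∈ A) (hb : b ∈ A) : a * b = b * a :=
  (LocalP.isElementaryAbelian_iff.1 L.top.elem).1 a ha b hb

theorem Local.one_ne (L : Local z Q A) : ¬ IsConj z 1 := fun h => by
  obtain ⟨g, hg⟩ := isConj_iff.1 h
  have := L.setting.order
  rw [conj_eq_one_iff.1 hg, orderOf_one] at this
  norm_num at this

theorem Local.not_zSet_dSet (L : Local z Q A) {a : G} (ha : a ∈ A) (h1 : a ≠ 1)
    (hd : a ∉ dSet z Q A) : a ∈ zSet z A := by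
  by_contra hz
  exact hd (L.card_sets.2.2 a ha h1 fun hc => hz (mem_sel.2 ⟨ha, hc⟩))

/-- 44 and 36, and the pairs with product `z` lie in `Q`. -/
theorem Local.ways_eq (L : Local z Q A) :
    (∀ a ∈ dSet z Q A, ways (dSet z Q A) a = 44) ∧
      (∀ a ∈ zSet z A, ways (dSet z Q A) a = 36) ∧
      ∀ u ∈ dSet z Q A, z * u ∈ dSet z Q A → u ∈ Q := by
  classical
  obtain ⟨hZ, hD, -⟩ := L.card_sets
  set D := dSet z Q A with hDdef
  obtain ⟨t, ht⟩ : D.Nonempty := card_pos.1 (by omega)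
  have hdconst : ∀ a ∈ D, ways D a = ways D t := by
    intro a ha
    obtain ⟨m, hm, rfl⟩ := L.exists_move' ht ha
    exact ways_conj hm t
  have hzconst : ∀ a ∈ zSet z A, ways D a = ways D z := by
    intro a ha
    obtain ⟨m, hm, rfl⟩ := L.exists_move ha
    exact ways_conj hm z
  have htot : ∑ a ∈ sel A (fun _ => True), ways D a = 276 * 276 := by
    have key := Finset.sum_card_bipartiteAbove_eq_sum_card_bipartiteBelow
      (s := sel A fun _ => True) (t := D) (fun a u => a * u ∈ D)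
    rw [sum_congr rfl (fun a _ => ways_def D a)]
    refine key.trans ((sum_congr rfl (g := fun _ => 276) fun u hu => ?_).trans
      (by rw [sum_const, hD, smul_eq_mul]))
    have huA := (mem_sel.1 hu).1
    rw [← hD]
    refine card_bij' (fun a _ => a * u) (fun d _ => d * u) ?_ ?_ ?_ ?_
    · intro a ha; exact (mem_filter.1 ha).2
    · intro d hd
      refine mem_filter.2 ⟨mem_sel.2 ⟨mul_mem (mem_sel.1 hd).1 huA, trivial⟩, ?_⟩
      show d * u * u ∈ D
      rwa [mul_assoc, L.sq huA, mul_one]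
    · intro a _; simp [mul_assoc, L.sq huA]
    · intro d _; simp [mul_assoc, L.sq huA]
  have hsplit : sel A (fun _ => True) = insert 1 (zSet z A ∪ D) := by
    ext a
    simp only [mem_sel, mem_insert, mem_union]
    constructor
    · rintro ⟨ha, -⟩
      by_cases h1 : a = 1
      · exact Or.inl h1
      by_cases hd : a ∈ D
      · exact Or.inr (Or.inr hd)
      · exact Or.inr (Or.inl (L.not_zSet_dSet ha h1 hd))
    · rintro (rfl | h | h)
      · exact ⟨one_mem _, trivial⟩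
      · exact ⟨(mem_sel.1 h).1, trivial⟩
      · exact ⟨(mem_sel.1 h).1, trivial⟩
  have hdis : Disjoint (zSet z A) D := disjoint_left.2 fun a h1 h2 =>
    (mem_sel.1 h2).2.1.2 (mem_sel.1 h1).2
  have h1not : (1 : G) ∉ zSet z A ∪ D := by
    simp only [mem_union, not_or]
    exact ⟨fun h => L.one_ne (mem_sel.1 h).2, fun h => (mem_sel.1 h).2.1.1 rfl⟩
  have hone : ways D 1 = 276 := by
    rw [ways_def, filter_true_of_mem (fun u hu => by rwa [one_mul]), hD]
  rw [hsplit, sum_insert h1not, sum_union hdis, sum_congr rfl hzconst, sum_congr rfl hdconst,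
    sum_const, sum_const, hone, hZ, hD, smul_eq_mul, smul_eq_mul] at htot
  have hDQ : (D.filter fun u => u ∈ Q).card = 36 := by
    rw [← L.card_inter_d]
    congr 1
    ext a
    simp only [mem_filter, mem_sel]
    exact ⟨fun ⟨h1, h2⟩ => ⟨(mem_sel.1 h1).1, h2, h1⟩, fun ⟨_, h2, h3⟩ => ⟨h3, h2⟩⟩
  have hsub : (D.filter fun u => u ∈ Q) ⊆ D.filter fun u => z * u ∈ D := by
    intro u hu
    obtain ⟨h1, h2⟩ := mem_filter.1 hu
    obtain ⟨huA, ho, -⟩ := mem_sel.1 h1
    refine mem_filter.2 ⟨h1, L.mem_dSet_of_mem (mul_mem L.mem huA)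
      (mul_mem L.setting.z_mem h2) ?_⟩
    rw [L.comm L.mem huA]
    exact L.mul_z h2 ho (IsConj.refl z)
  have hge : 36 ≤ ways D z := by rw [ways_def, ← hDQ]; exact card_le_card hsub
  have key : ways D t = 44 ∧ ways D z = 36 := by
    constructor <;> omega
  refine ⟨fun a ha => (hdconst a ha).trans key.1, fun a ha => (hzconst a ha).trans key.2,
    fun u hu hzu => ?_⟩
  have heq := eq_of_subset_of_card_le hsub (by rw [hDQ, ← ways_def]; exact key.2.le)
  have : u ∈ D.filter fun u => u ∈ Q := heq ▸ mem_filter.2 ⟨hu, hzu⟩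
  exact (mem_filter.1 this).2

/-- Two members with product `z`. -/
theorem Local.common_z (L : Local z Q A) {w : G} (hw : w ∈ dSet z Q A)
    (hw' : w * z ∈ dSet z Q A) :
    (∀ x ∈ dSet z Q A, x * w ∈ dSet z Q A → x * (w * z) ∈ dSet z Q A → x * z ∈ dSet z Q A) ∧
      {x | x ∈ dSet z Q A ∧ x * w ∈ dSet z Q A ∧ x * (w * z) ∈ dSet z Q A}.ncard = 4 := by
  obtain ⟨-, -, hin⟩ := L.ways_eq
  obtain ⟨hwA, hwo, -⟩ := mem_sel.1 hw
  have hwQ : w ∈ Q := hin w hw (by rwa [L.comm L.mem hwA])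
  have hxQ : ∀ x ∈ dSet z Q A, x * w ∈ dSet z Q A → x * (w * z) ∈ dSet z Q A → x ∈ Q := by
    intro x hx h1 h2
    have h3 : x * w ∈ Q := by
      refine hin _ h1 ?_
      rw [L.comm L.mem (mem_sel.1 h1).1, mul_assoc]
      exact h2
    simpa [mul_assoc, L.sq hwA] using mul_mem h3 hwQ
  have hmz : ∀ x ∈ A, x ∈ Q → Other z x → x * z ∈ dSet z Q A := fun x hx hq ho =>
    L.mem_dSet_of_mem (mul_mem hx L.mem) (mul_mem hq L.setting.z_mem)
      (L.mul_z hq ho (IsConj.refl z))
  refine ⟨fun x hx h1 h2 => hmz x (mem_sel.1 hx).1 (hxQ x hx h1 h2) (mem_sel.1 hx).2.1, ?_⟩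
  rw [← L.partners w hwA hwQ hwo]
  congr 1
  ext x
  simp only [Set.mem_setOf_eq]
  constructor
  · rintro ⟨hx, h1, h2⟩
    exact ⟨(mem_sel.1 hx).1, hxQ x hx h1 h2, (mem_sel.1 hx).2.1, (mem_sel.1 h1).2.1⟩
  · rintro ⟨hxA, hxq, hxo, hxw⟩
    refine ⟨L.mem_dSet_of_mem hxA hxq hxo,
      L.mem_dSet_of_mem (mul_mem hxA hwA) (mul_mem hxq hwQ) hxw, ?_⟩
    rw [← mul_assoc]
    exact hmz _ (mul_mem hxA hwA) (mul_mem hxq hwQ) hxw

/-- Two non-adjacent members. -/
theorem Local.common (L : Local z Q A) {w w' : G} (hw : w ∈ dSet z Q A) (hw' : w' ∈ dSet z Q A)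
    (hne : w ≠ w') (hn : w * w' ∉ dSet z Q A) :
    (∀ x ∈ dSet z Q A, x * w ∈ dSet z Q A → x * w' ∈ dSet z Q A →
        x * (w * w') ∈ dSet z Q A) ∧
      {x | x ∈ dSet z Q A ∧ x * w ∈ dSet z Q A ∧ x * w' ∈ dSet z Q A}.ncard = 4 := by
  have hwA := (mem_sel.1 hw).1
  have hw'A := (mem_sel.1 hw').1
  have h1 : w * w' ≠ 1 := fun e => hne (by
    have := congrArg (w * ·) e
    simpa [← mul_assoc, L.sq hwA] using this.symm)
  obtain ⟨m, hm, hmz⟩ := L.exists_move (L.not_zSet_dSet (mul_mem hwA hw'A) h1 hn)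
  let f : G → G := fun y => m⁻¹ * y * m
  have hf : ∀ y, y ∈ dSet z Q A ↔ f y ∈ dSet z Q A := fun y =>
    ⟨fun h => by simpa [f] using dSet_conj (inv_mem hm) h,
      fun h => by simpa [f, mul_assoc] using dSet_conj hm h⟩
  have hfm : ∀ a b, f (a * b) = f a * f b := fun a b => by simp [f, mul_assoc]
  have hfz : f (w * w') = z := by simp [f, ← hmz, mul_assoc]
  have hw'eq : f w' = f w * z := by
    rw [← hfz, ← hfm, ← mul_assoc, L.sq hwA, one_mul]
  obtain ⟨hcl, hcard⟩ := L.common_z ((hf w).1 hw) (hw'eq ▸ (hf w').1 hw')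
  refine ⟨fun x hx hxw hxw' => ?_, ?_⟩
  · rw [hf, hfm, hfz]
    refine hcl _ ((hf x).1 hx) ?_ ?_
    · rw [← hfm, ← hf]; exact hxw
    · rw [← hw'eq, ← hfm, ← hf]; exact hxw'
  · rw [← hcard]
    have hinj : Function.Injective f := fun a b e => by simpa [f] using e
    rw [← Set.ncard_image_of_injective _ hinj]
    congr 1
    ext y
    simp only [Set.mem_image, Set.mem_setOf_eq]
    constructor
    · rintro ⟨x, ⟨h1, h2, h3⟩, rfl⟩
      rw [← hw'eq, ← hfm, ← hfm, ← hf, ← hf, ← hf]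
      exact ⟨h1, h2, h3⟩
    · rintro ⟨h1, h2, h3⟩
      have hy : f (m * y * m⁻¹) = y := by simp [f, mul_assoc]
      refine ⟨m * y * m⁻¹, ?_, hy⟩
      rw [hf, hf (_ * w), hf (_ * w'), hfm _ w, hfm _ w', hy, hw'eq]
      exact ⟨h1, h2, h3⟩

end CfsgLib.LargeFischer45
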