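import Cfsg.Agent.LargeFischer45.Stars
import Cfsg.Prelude.Def_Sporadic_a

/-!
The stars are 24 points, the 276 members are their pairs, and the eight-sets with trivial product
form a Steiner system S(5,8,24).
-/

set_option autoImplicit false

namespace CfsgLib.Triangular45

open Finset

variable {A : Type*} [CommGroup A] [DecidableEq A] {D : Finset A}

open scoped Classical in
/-- All stars. -/
noncomputable def stars (D : Finset A) : Finset (Finset A) := D.powerset.filter (IsStar D)

/-- The points. -/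
abbrev Pts (D : Finset A) : Type _ := {K : Finset A // K ∈ stars D}

theorem mem_stars {K : Finset A} : K ∈ stars D ↔ IsStar D K := by
  classical
  simp only [stars, mem_filter, mem_powerset, and_iff_right_iff_imp]
  exact fun hK => hK.sub

/-- The points at the ends of a member. -/
noncomputable def ends (D : Finset A) (t : A) : Finset (Pts D) := univ.filter fun p => t ∈ p.1

theorem mem_ends {t : A} {p : Pts D} : p ∈ ends D t ↔ t ∈ p.1 := by simp [ends]

theorem exists_nbr (h : Hyp D) {t : A} (ht : t ∈ D) : ∃ w ∈ D, t * w ∈ D := by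
  obtain ⟨w, hw⟩ : (D.filter fun u => t * u ∈ D).Nonempty := by
    rw [← card_pos, h.deg t ht]; norm_num
  exact ⟨w, (mem_filter.1 hw).1, (mem_filter.1 hw).2⟩

theorem card_ends (h : Hyp D) {t : A} (ht : t ∈ D) : (ends D t).card = 2 := by
  classical
  obtain ⟨w, hw, htw⟩ := exists_nbr h ht
  have s1 := isStar_star h ht hw htw
  have s2 := isStar_star h ht htw (by rwa [mul_cancel h])
  refine card_eq_two.2 ⟨⟨_, mem_stars.2 s1⟩, ⟨_, mem_stars.2 s2⟩, fun e => ?_, ?_⟩
  · have e' : star D t w = star D t (t * w) := congrArg Subtype.val e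
    refine (s1.mul t (mem_star hw htw).1 w (mem_star hw htw).2 (ne_of_mem h htw)).2 ?_
    rw [e']
    exact (mem_star htw (by rwa [mul_cancel h])).2
  · ext p
    rw [mem_ends, mem_insert, mem_singleton, Subtype.ext_iff, Subtype.ext_iff]
    refine ⟨eq_or_eq h hw htw (mem_stars.1 p.2), ?_⟩
    rintro (e | e) <;> rw [e] <;> exact mem_insert_self _ _

theorem card_pts (h : Hyp D) : Fintype.card (Pts D) = 24 := by
  classical
  have key := Finset.sum_card_bipartiteAbove_eq_sum_card_bipartiteBelow
    (s := D) (t := (univ : Finset (Pts D))) (fun t p => t ∈ p.1)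
  have l : ∑ t ∈ D, (bipartiteAbove (fun t (p : Pts D) => t ∈ p.1) univ t).card = 552 := by
    refine (sum_congr rfl (g := fun _ => 2) fun t ht => ?_).trans ?_
    · rw [← card_ends h ht]; rfl
    · rw [sum_const, h.card]; rfl
  have r : ∑ p ∈ (univ : Finset (Pts D)), (bipartiteBelow (fun t (p : Pts D) => t ∈ p.1) D p).card =
      23 * Fintype.card (Pts D) := by
    refine (sum_congr rfl (g := fun _ => 23) fun p _ => ?_).trans ?_
    swap
    · rw [sum_const, card_univ, smul_eq_mul, mul_comm]
    have hp := mem_stars.1 p.2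
    rw [← hp.card]
    congr 1
    ext a
    simp only [bipartiteBelow, mem_filter, and_iff_right_iff_imp]
    exact fun ha => hp.sub ha
  rw [l, r] at key
  omega

theorem unique_meet (h : Hyp D) {p q : Pts D} (hne : p ≠ q) {a b : A} (ha : a ∈ p.1) (ha' : a ∈ q.1)
    (hb : b ∈ p.1) (hb' : b ∈ q.1) : a = b := by
  by_contra hab
  exact hne (Subtype.ext ((eq_star h (mem_stars.1 p.2) ha hb hab).trans
    (eq_star h (mem_stars.1 q.2) ha' hb' hab).symm))

theorem exists_meet (h : Hyp D) {p q : Pts D} (hne : p ≠ q) : ∃ t, t ∈ p.1 ∧ t ∈ q.1 := by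
  classical
  have hsub : D.image (ends D) ⊆ (univ : Finset (Pts D)).powersetCard 2 := by
    intro S hS
    obtain ⟨t, ht, rfl⟩ := mem_image.1 hS
    exact mem_powersetCard.2 ⟨subset_univ _, card_ends h ht⟩
  have hinj : Set.InjOn (ends D) (D : Set A) := by
    intro a ha b _ e
    obtain ⟨x, y, hxy, hs⟩ := card_eq_two.1 (card_ends h ha)
    have hx : x ∈ ends D a := by simp [hs]
    have hy : y ∈ ends D a := by simp [hs]
    exact unique_meet h hxy (mem_ends.1 hx) (mem_ends.1 hy) (mem_ends.1 (e ▸ hx))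
      (mem_ends.1 (e ▸ hy))
  have heq := eq_of_subset_of_card_le hsub (by
    rw [card_powersetCard, card_univ, card_pts h, card_image_of_injOn hinj, h.card]; decide)
  have hmem : ({p, q} : Finset (Pts D)) ∈ D.image (ends D) := by
    rw [heq, mem_powersetCard]
    exact ⟨subset_univ _, card_pair hne⟩
  obtain ⟨t, -, e⟩ := mem_image.1 hmem
  exact ⟨t, mem_ends.1 (e ▸ mem_insert_self _ _), mem_ends.1 (e ▸ mem_insert_of_mem (mem_singleton_self _))⟩

open scoped Classical in
/-- The member joining two points. -/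
noncomputable def duad (D : Finset A) (p q : Pts D) : A :=
  if p = q then 1 else if hex : ∃ t, t ∈ p.1 ∧ t ∈ q.1 then hex.choose else 1

theorem duad_spec (h : Hyp D) {p q : Pts D} (hne : p ≠ q) :
    duad D p q ∈ p.1 ∧ duad D p q ∈ q.1 := by
  rw [duad, if_neg hne, dif_pos (exists_meet h hne)]
  exact (exists_meet h hne).choose_spec

theorem duad_self (p : Pts D) : duad D p p = 1 := by rw [duad, if_pos rfl]

theorem duad_eq (h : Hyp D) {p q : Pts D} (hne : p ≠ q) {t : A} (hp : t ∈ p.1) (hq : t ∈ q.1) :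
    duad D p q = t :=
  unique_meet h hne (duad_spec h hne).1 (duad_spec h hne).2 hp hq

theorem duad_mem (h : Hyp D) {p q : Pts D} (hne : p ≠ q) : duad D p q ∈ D :=
  (mem_stars.1 p.2).sub (duad_spec h hne).1

theorem duad_comm (h : Hyp D) (p q : Pts D) : duad D p q = duad D q p := by
  by_cases e : p = q
  · rw [e]
  · exact duad_eq h e (duad_spec h (Ne.symm e)).2 (duad_spec h (Ne.symm e)).1

theorem ends_duad (h : Hyp D) {p q : Pts D} (hne : p ≠ q) : ends D (duad D p q) = {p, q} := by
  refine (eq_of_subset_of_card_le ?_ ?_).symm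
  · intro r hr
    rw [mem_ends]
    rcases mem_insert.1 hr with rfl | hr
    · exact (duad_spec h hne).1
    · rw [mem_singleton.1 hr]; exact (duad_spec h hne).2
  · rw [card_pair hne, card_ends h (duad_mem h hne)]

theorem duad_triangle (h : Hyp D) {p q r : Pts D} (hpq : p ≠ q) (hqr : q ≠ r) (hpr : p ≠ r) :
    duad D p q * duad D q r = duad D p r := by
  classical
  obtain ⟨hap, haq⟩ := duad_spec h hpq
  obtain ⟨hbq, hbr⟩ := duad_spec h hqr
  have ha := duad_mem h hpq
  have hb := duad_mem h hqr
  have hea := ends_duad h hpq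
  have heb := ends_duad h hqr
  generalize duad D p q = a at *
  generalize duad D q r = b at *
  have hne : a ≠ b := by
    intro e
    subst e
    have hm : p ∈ ({q, r} : Finset (Pts D)) := heb ▸ mem_ends.2 hap
    simp only [mem_insert, mem_singleton] at hm
    tauto
  obtain ⟨hab, habq⟩ := (mem_stars.1 q.2).mul a haq b hbq hne
  have side : ∀ {a b : A}, a ∈ D → a * b ∈ D → a * (a * b) ∈ D →
      ∀ {x : Pts D}, ends D a = {x, q} → a * b ∉ q.1 → a * b ∈ x.1 := by
    intro a b ha hab haab x hx hq'
    have hs := isStar_star h ha hab haab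
    have hm : (⟨_, mem_stars.2 hs⟩ : Pts D) ∈ ({x, q} : Finset (Pts D)) :=
      hx ▸ mem_ends.2 (mem_insert_self _ _)
    obtain ⟨-, hin⟩ := mem_star (t := a) hab haab
    rcases mem_insert.1 hm with e | e
    · exact e ▸ hin
    · exact absurd ((mem_singleton.1 e) ▸ hin) hq'
  refine (duad_eq h hpr (side ha hab (by rwa [mul_cancel h]) hea habq) ?_).symm
  rw [mul_comm] at hab habq ⊢
  exact side hb hab (by rwa [mul_cancel h]) (by rw [heb, pair_comm]) habq

theorem duad_split (h : Hyp D) (o p q : Pts D) :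
    duad D p q = duad D o p * duad D o q := by
  by_cases hpq : p = q
  · rw [hpq, h.sq, duad_self]
  by_cases hp : p = o
  · rw [hp, duad_self, one_mul]
  by_cases hq : q = o
  · rw [hq, duad_self, mul_one, duad_comm h]
  rw [duad_comm h o p, duad_triangle h hp (Ne.symm hq) hpq]

/-- The value of a set of points. -/
noncomputable def val (D : Finset A) (o : Pts D) (S : Finset (Pts D)) : A := ∏ p ∈ S, duad D o p

theorem val_pair (h : Hyp D) (o : Pts D) {p q : Pts D} (hne : p ≠ q) :
    val D o {p, q} = duad D p q := by rw [val, prod_pair hne, ← duad_split h]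

theorem val_ends (h : Hyp D) (o : Pts D) {t : A} (ht : t ∈ D) : val D o (ends D t) = t := by
  obtain ⟨p, q, hne, e⟩ := card_eq_two.1 (card_ends h ht)
  rw [e, val_pair h o hne]
  refine duad_eq h hne ?_ ?_ <;> apply mem_ends.1 <;> simp [e]

theorem val_symmDiff (h : Hyp D) (o : Pts D) (S T : Finset (Pts D)) :
    val D o (symmDiff S T) = val D o S * val D o T := by
  have hd : Disjoint (symmDiff S T) (S ∩ T) := disjoint_symmDiff_inf S T
  have hu : symmDiff S T ∪ S ∩ T = S ∪ T := symmDiff_sup_inf S T
  rw [val, val, val, ← prod_union_inter (s₁ := S) (s₂ := T), ← hu, prod_union hd,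
    mul_cancel' h]

theorem card_symmDiff_add (S T : Finset (Pts D)) :
    (symmDiff S T).card + 2 * (S ∩ T).card = S.card + T.card := by
  have hd : Disjoint (symmDiff S T) (S ∩ T) := disjoint_symmDiff_inf S T
  have hu : symmDiff S T ∪ S ∩ T = S ∪ T := symmDiff_sup_inf S T
  have := card_union_add_card_inter S T
  rw [← hu, card_union_of_disjoint hd] at this
  omega

theorem exists_duad_of_card_two (h : Hyp D) (o : Pts D) {T : Finset (Pts D)} (hT : T.card = 2) :
    val D o T ∈ D ∧ ends D (val D o T) = T := by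
  obtain ⟨p, q, hne, rfl⟩ := card_eq_two.1 hT
  rw [val_pair h o hne]
  exact ⟨duad_mem h hne, ends_duad h hne⟩

theorem not_mem_of_disjoint (h : Hyp D) {a b : A} (ha : a ∈ D) (hb : b ∈ D)
    (hd : Disjoint (ends D a) (ends D b)) : a * b ∉ D := by
  intro hab
  obtain ⟨h1, h2⟩ := mem_star (t := a) hb hab
  exact disjoint_left.1 hd
    (mem_ends.2 (show a ∈ (⟨_, mem_stars.2 (isStar_star h ha hb hab)⟩ : Pts D).1 from h1))
    (mem_ends.2 h2)

/-- No nonempty even set of size at most six has trivial value. -/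
theorem eq_empty_of_val (h : Hyp D) (o : Pts D) {S : Finset (Pts D)} (he : Even S.card)
    (h6 : S.card ≤ 6) (hv : val D o S = 1) : S = ∅ := by
  classical
  by_contra hne
  have hpos := card_pos.2 (nonempty_iff_ne_empty.2 hne)
  have h2 : 2 ≤ S.card := by obtain ⟨k, hk⟩ := he; omega
  obtain ⟨T, hTS, hT⟩ := exists_subset_card_eq h2
  obtain ⟨hTD, hTe⟩ := exists_duad_of_card_two h o hT
  have hsplit : val D o (S \ T) * val D o T = 1 := by rw [val, val, prod_sdiff hTS]; exact hv
  have hrest : (S \ T).card = S.card - 2 := by rw [card_sdiff_of_subset hTS, hT]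
  have hval := eq_of_mul_eq_one h hsplit
  obtain ⟨k, hk⟩ := he
  rcases (show S.card = 2 ∨ S.card = 4 ∨ S.card = 6 by omega) with e | e | e
  · rw [val, card_eq_zero.1 (by omega : (S \ T).card = 0), prod_empty] at hval
    exact ne_one_of_mem h hTD hval.symm
  · obtain ⟨-, hUe⟩ := exists_duad_of_card_two h o (T := S \ T) (by omega)
    rw [hval, hTe] at hUe
    obtain ⟨x, hx⟩ := card_pos.1 (by rw [hT]; norm_num : 0 < T.card)
    exact (mem_sdiff.1 (hUe ▸ hx)).2 hx
  · obtain ⟨U, hUS, hU⟩ := exists_subset_card_eq (n := 2) (s := S \ T) (by omega)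
    obtain ⟨hUD, hUe⟩ := exists_duad_of_card_two h o hU
    obtain ⟨hWD, hWe⟩ := exists_duad_of_card_two h o (T := (S \ T) \ U)
      (by rw [card_sdiff_of_subset hUS, hU]; omega)
    rw [val, ← prod_sdiff hUS] at hval
    refine not_mem_of_disjoint h hWD hUD ?_ ?_
    · rw [hWe, hUe]; exact sdiff_disjoint
    · change val D o ((S \ T) \ U) * val D o U = val D o T at hval
      rw [hval]; exact hTD

/-- The eight-sets of trivial value. -/
def blocks (D : Finset A) (o : Pts D) : Set (Finset (Pts D)) :=
  {S | S.card = 8 ∧ val D o S = 1}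

theorem quads_disjoint (h : Hyp D) (o : Pts D) {Q R : Finset (Pts D)} (hQ : Q.card = 4)
    (hR : R.card = 4) (he : val D o Q = val D o R) (hne : Q ≠ R) : Disjoint Q R := by
  classical
  rw [disjoint_iff_inter_eq_empty]
  by_contra hi
  have hpos := card_pos.2 (nonempty_iff_ne_empty.2 hi)
  have hc := card_symmDiff_add Q R
  refine hne (symmDiff_eq_bot.1 ?_)
  exact eq_empty_of_val h o ⟨4 - (Q ∩ R).card, by omega⟩ (by omega)
    (by rw [val_symmDiff h, he, h.sq])

theorem steiner (h : Hyp D) (o : Pts D) : Cfsg.IsSteinerSystem 5 8 (blocks D o) := by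
  classical
  refine ⟨fun b hb => hb.1, fun s hs => ?_⟩
  obtain ⟨e, he⟩ := card_pos.1 (by rw [hs]; norm_num : 0 < s.card)
  have hs4 : (s.erase e).card = 4 := by rw [card_erase_of_mem he, hs]
  obtain ⟨T, hTs, hT⟩ := exists_subset_card_eq (n := 2) (s := s.erase e) (by omega)
  have hU : ((s.erase e) \ T).card = 2 := by rw [card_sdiff_of_subset hTs, hT, hs4]
  obtain ⟨hTD, hTe⟩ := exists_duad_of_card_two h o hT
  obtain ⟨hUD, hUe⟩ := exists_duad_of_card_two h o hU
  set x := val D o (s.erase e) with hx
  have hxs : x = val D o ((s.erase e) \ T) * val D o T := by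
    rw [hx, val, val, val, prod_sdiff hTs]
  have hxD : x ∉ D := hxs ▸ not_mem_of_disjoint h hUD hTD (by rw [hTe, hUe]; exact sdiff_disjoint)
  have hx1 : x ≠ 1 := fun e' => by
    have := eq_empty_of_val h o (S := s.erase e) ⟨2, hs4⟩ (by omega) e'
    simp [this] at hs4
  set F := D.filter fun u => x * u ∈ D with hF
  let quad : A → Finset (Pts D) := fun u => ends D u ∪ ends D (x * u)
  have hdis : ∀ u ∈ F, Disjoint (ends D u) (ends D (x * u)) := by
    intro u hu
    obtain ⟨huD, hxu⟩ := mem_filter.1 hu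
    rw [disjoint_left]
    intro p hp hp'
    have := ((mem_stars.1 p.2).mul u (mem_ends.1 hp) _ (mem_ends.1 hp')
      (fun e' => hx1 (mul_eq_right.mp e'.symm))).1
    rw [mul_left_comm, h.sq, mul_one] at this
    exact hxD this
  have hq : ∀ u ∈ F, (quad u).card = 4 ∧ val D o (quad u) = x := by
    intro u hu
    obtain ⟨huD, hxu⟩ := mem_filter.1 hu
    refine ⟨by rw [card_union_of_disjoint (hdis u hu), card_ends h huD, card_ends h hxu], ?_⟩
    rw [val, prod_union (hdis u hu)]
    change val D o (ends D u) * val D o (ends D (x * u)) = x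
    rw [val_ends h o huD, val_ends h o hxu, mul_left_comm, h.sq, mul_one]
  set QS := F.image quad with hQS
  have hmem : ∀ Q ∈ QS, Q.card = 4 ∧ val D o Q = x := by
    intro Q hQ
    obtain ⟨u, hu, rfl⟩ := mem_image.1 hQ
    exact hq u hu
  have hfib : F.card ≤ 6 * QS.card := by
    refine card_le_mul_card_image F 6 fun Q hQ => ?_
    calc ((F.filter fun u => quad u = Q)).card ≤ (Q.powersetCard 2).card := by
          refine card_le_card_of_injOn (ends D) ?_ ?_
          · intro u hu
            obtain ⟨huF, rfl⟩ := mem_filter.1 hu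
            exact mem_powersetCard.2 ⟨subset_union_left, card_ends h (mem_filter.1 huF).1⟩
          · intro a ha b hb eab
            rw [← val_ends h o (mem_filter.1 (mem_filter.1 ha).1).1, eab,
              val_ends h o (mem_filter.1 (mem_filter.1 hb).1).1]
      _ = 6 := by rw [card_powersetCard, (hmem Q hQ).1]; decide
  have hbu : (QS.biUnion id).card = 4 * QS.card := by
    refine (card_biUnion (t := id) fun Q hQ R hR hne => quads_disjoint h o (hmem Q hQ).1
      (hmem R hR).1 ((hmem Q hQ).2.trans (hmem R hR).2.symm) hne).trans ?_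
    rw [sum_congr rfl (fun Q hQ => (show (id Q).card = 4 from (hmem Q hQ).1)), sum_const,
      smul_eq_mul, mul_comm]
  have hall : QS.biUnion id = univ := by
    refine eq_univ_of_card _ ?_
    have := card_le_univ (QS.biUnion id)
    rw [h.dec x hx1 hxD] at hfib
    rw [card_pts h] at this ⊢
    omega
  obtain ⟨Q, hQ, heQ⟩ := mem_biUnion.1 (hall ▸ mem_univ e)
  have hd := quads_disjoint h o hs4 (hmem Q hQ).1 (hx ▸ (hmem Q hQ).2.symm)
    (fun e' => by rw [← e'] at heQ; exact (mem_erase.1 heQ).1 rfl)
  refine ⟨s.erase e ∪ Q, ⟨⟨by rw [card_union_of_disjoint hd, hs4, (hmem Q hQ).1], ?_⟩, ?_⟩, ?_⟩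
  · rw [val, prod_union hd]
    change val D o (s.erase e) * val D o Q = 1
    rw [(hmem Q hQ).2, ← hx, h.sq]
  · intro y hy
    by_cases e' : y = e
    · exact mem_union_right _ (e' ▸ heQ)
    · exact mem_union_left _ (mem_erase.2 ⟨e', hy⟩)
  · rintro b ⟨⟨hb, hbv⟩, hsb⟩
    set c := s.erase e ∪ Q with hc
    have hsc : s ⊆ c := fun y hy => by
      by_cases e' : y = e
      · exact mem_union_right _ (e' ▸ heQ)
      · exact mem_union_left _ (mem_erase.2 ⟨e', hy⟩)
    have h5 : 5 ≤ (b ∩ c).card := hs ▸ card_le_card (subset_inter hsb hsc)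
    have hcc : c.card = 8 := by rw [hc, card_union_of_disjoint hd, hs4, (hmem Q hQ).1]
    have hcv : val D o c = 1 := by
      rw [hc, val, prod_union hd]
      change val D o (s.erase e) * val D o Q = 1
      rw [(hmem Q hQ).2, ← hx, h.sq]
    have := card_symmDiff_add b c
    refine symmDiff_eq_bot.1 (eq_empty_of_val h o ⟨8 - (b ∩ c).card, by omega⟩ (by omega) ?_)
    rw [val_symmDiff h, hbv, hcv, one_mul]

end CfsgLib.Triangular45
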