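import Cfsg.Agent.LargeFischer28.Sylow

/-!
Large Fischer type, facts in the frame model on the fixed space of the elementary subgroup of order 16:
the good maps of the group fixing it pointwise form that subgroup.
-/

set_option autoImplicit false
set_option maxRecDepth 100000

namespace CfsgLib.LargeFischer45

open CfsgLib.LargeFischer85 CfsgLib.LargeFischer28

/-- The domains of the three steps. -/
def ptDom (k : ℕ) : List ℕ := spanN (b0Basis ++ ([1, 2, 4, 8, 16, 32] : List ℕ).take (2 * k))

/-- The numbers of the linear elements of the Sylow subgroup fixing the space. -/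
def ptIdx : List ℕ := [0, 1, 3, 11, 35, 42, 78, 83, 117, 118, 121, 122, 127, 151, 157, 178, 181,
  204, 220, 231, 250, 308, 374, 375, 377, 378, 380, 387, 394, 404, 441, 449]

/-- Agreement of the two masks on a translate of a domain. -/
def agreeB (k e n : ℕ) : Bool := (ptDom k).all fun u => keepMasks (e ^^^ u) (n ^^^ u)

theorem c_step0 : chk (fun n => !agreeB 0 1 n ||
    ptIdx.any fun i => appN (elsC i) 12 1 == n) 12 0 = true := by
  decide +kernel

theorem c_step1 : chk (fun n => !agreeB 1 4 n || n == 4) 12 0 = true := by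
  decide +kernel

theorem c_step2 : chk (fun n => !agreeB 2 16 n || n == 16) 12 0 = true := by
  decide +kernel

theorem c_dom : (((List.range 3).all fun k => (ptDom k).all fun u => decide (u < 4096)) &&
    (List.range 12).all fun j => (ptDom 3).contains (2 ^ j)) = true := by
  decide +kernel

theorem c_idx : (ptIdx.all fun i => decide (i < 512) && linN.testBit i &&
    (b0Basis.all fun u => appN (elsC i) 12 u == u) &&
    (!flagN.testBit i || i == 0 || a0J.any fun a => jN a == i)) = true := by
  decide +kernel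

theorem c_omBas : (om 1).val = 2 ∧ (om 4).val = 8 ∧ (om 16).val = 32 := by decide +kernel

theorem c_bv : ∀ e ∈ b0Basis, ∃ i : Fin 6, (bv i.val).val = e := by decide +kernel

theorem c_b0lt : ∀ e ∈ b0Basis, e < 4096 := by decide +kernel

theorem fix_span {g : Equiv.Perm W} (hg : IsAdd g) : ∀ l : List ℕ,
    (∀ e ∈ l, ∃ v : W, v.val = e ∧ g v = v) → ∀ n ∈ spanN l, ∃ v : W, v.val = n ∧ g v = v
  | [], _, n, hn => by
    obtain rfl : n = 0 := by simpa [spanN] using hn
    exact ⟨0, rfl, hg.map_zero⟩
  | e :: l, hl, n, hn => by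
    have hl' : ∀ a ∈ l, ∃ v : W, v.val = a ∧ g v = v := fun a ha => hl a (List.mem_cons_of_mem _ ha)
    simp only [spanN, List.mem_append, List.mem_map] at hn
    rcases hn with hn | ⟨m, hm, rfl⟩
    · exact fix_span hg l hl' n hn
    · obtain ⟨v, rfl, hv⟩ := hl e (List.mem_cons_self ..)
      obtain ⟨w, rfl, hw⟩ := fix_span hg l hl' m hm
      refine ⟨vadd v w, ?_, by rw [hg, hv, hw]⟩
      rw [vadd_val]
      exact Nat.xor_comm _ _

theorem ptDom_fix {g : Equiv.Perm W} (hg : IsAdd g) (hB : ∀ v, inB0 v → g v = v) (k : ℕ)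
    (hk : ∀ e ∈ ([1, 2, 4, 8, 16, 32] : List ℕ).take (2 * k), ∃ v : W, v.val = e ∧ g v = v)
    (n : W) (hn : n.val ∈ ptDom k) : g n = n := by
  suffices hl : ∀ e ∈ b0Basis ++ ([1, 2, 4, 8, 16, 32] : List ℕ).take (2 * k),
      ∃ v : W, v.val = e ∧ g v = v by
    obtain ⟨v, hv, h⟩ := fix_span hg _ hl n.val hn
    exact (Fin.ext hv : v = n) ▸ h
  intro e he
  rcases List.mem_append.1 he with he | he
  · obtain ⟨i, hi⟩ := c_bv e he
    exact ⟨bv i.val, hi, hB _ (inB0_bv i)⟩
  · exact hk e he

theorem agree_of_fix {g : Equiv.Perm W} (hg : IsGood g) {k : ℕ} (hk : k < 3)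
    (hfix : ∀ n : W, n.val ∈ ptDom k → g n = n) (e : W) :
    agreeB k e.val (g e).val = true := by
  simp only [agreeB, List.all_eq_true, keepMasks, Bool.and_eq_true, beq_iff_eq]
  intro u hu
  have hd := c_dom
  simp only [Bool.and_eq_true, List.all_eq_true, List.mem_range, decide_eq_true_eq] at hd
  let w : W := ⟨u, hd.1 k hk u hu⟩
  have e1 : e.val ^^^ u = (vadd e w).val := (vadd_val e w).symm
  have e2 : (g e).val ^^^ u = (vadd (g e) w).val := (vadd_val (g e) w).symm
  rw [e1, e2, sing_bit, sing_bit, one_bit, one_bit, ← hfix w hu, ← hg.add, hfix w hu]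
  exact ⟨decide_eq_decide.2 (hg.sing_iff _).symm, decide_eq_decide.2 (hg.one_iff _).symm⟩

/-- Linear good maps fixing the space and the first further vector are trivial. -/
theorem eq_one_of_fix {g : Equiv.Perm W} (hg : g ∈ GL6) (hB : ∀ v, inB0 v → g v = v)
    (h1 : g 1 = 1) : g = 1 := by
  obtain ⟨hgood, hlin⟩ := hg
  obtain ⟨o1, o4, o16⟩ := c_omBas
  have h2 : g (om 1) = om 1 := by rw [hlin, h1]
  have d1 : ∀ n : W, n.val ∈ ptDom 1 → g n = n := fun n hn => ptDom_fix hgood.add hB 1
    (fun e he => by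
      simp only [Nat.mul_one, List.take_succ_cons, List.take_zero, List.mem_cons,
        List.not_mem_nil, or_false] at he
      rcases he with rfl | rfl
      · exact ⟨1, rfl, h1⟩
      · exact ⟨om 1, o1, h2⟩) n hn
  have h4 : g 4 = 4 := by
    have h := chk_spec _ 12 0 c_step1 (g 4).val (Nat.zero_le _) (by simpa using (g 4).isLt)
    simp only [Bool.or_eq_true, Bool.not_eq_true', beq_iff_eq] at h
    refine Fin.ext (h.resolve_left ?_)
    have := agree_of_fix hgood (k := 1) (by norm_num) d1 4
    exact fun hc => absurd this (by rw [show ((4 : W).val) = 4 from rfl, hc]; exact Bool.false_ne_true)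
  have h8 : g (om 4) = om 4 := by rw [hlin, h4]
  have d2 : ∀ n : W, n.val ∈ ptDom 2 → g n = n := fun n hn => ptDom_fix hgood.add hB 2
    (fun e he => by
      simp only [List.take_succ_cons, List.take_zero, List.mem_cons, List.not_mem_nil, or_false,
        show 2 * 2 = 4 from rfl] at he
      rcases he with rfl | rfl | rfl | rfl
      · exact ⟨1, rfl, h1⟩
      · exact ⟨om 1, o1, h2⟩
      · exact ⟨4, rfl, h4⟩
      · exact ⟨om 4, o4, h8⟩) n hn
  have h16 : g 16 = 16 := by
    have h := chk_spec _ 12 0 c_step2 (g 16).val (Nat.zero_le _) (by simpa using (g 16).isLt)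
    simp only [Bool.or_eq_true, Bool.not_eq_true', beq_iff_eq] at h
    refine Fin.ext (h.resolve_left ?_)
    have := agree_of_fix hgood (k := 2) (by norm_num) d2 16
    exact fun hc => absurd this (by rw [show ((16 : W).val) = 16 from rfl, hc]; exact Bool.false_ne_true)
  have h32 : g (om 16) = om 16 := by rw [hlin, h16]
  refine Equiv.ext fun n => congrFun (isAdd_ext hgood.add isAdd_id fun j => ?_) n
  have hd := c_dom
  simp only [Bool.and_eq_true, List.all_eq_true, List.mem_range, List.contains_iff_mem] at hd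
  refine ptDom_fix hgood.add hB 3 (fun e he => ?_) (bas j) (hd.2 j.val j.isLt)
  simp only [List.take_succ_cons, List.take_zero, List.mem_cons, List.not_mem_nil, or_false,
    show 2 * 3 = 6 from rfl] at he
  rcases he with rfl | rfl | rfl | rfl | rfl | rfl
  · exact ⟨1, rfl, h1⟩
  · exact ⟨om 1, o1, h2⟩
  · exact ⟨4, rfl, h4⟩
  · exact ⟨om 4, o4, h8⟩
  · exact ⟨16, rfl, h16⟩
  · exact ⟨om 16, o16, h32⟩

/-- A good map fixing the space pointwise is linear. -/
theorem lin_of_fix {g : Equiv.Perm W} (hg : IsGood g) (hB : ∀ v, inB0 v → g v = v) : g ∈ GL6 := by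
  by_contra hn
  have ha := anti_of_not_lin hg hn (bv 0)
  have h0 : inB0 (bv 0) := inB0_bv 0
  have h1 : inB0 (om (bv 0)) := by unfold inB0; decide +kernel
  rw [hB _ h0, hB _ h1] at ha
  revert ha
  decide +kernel

/-- The elements of the group fixing the space pointwise form the subgroup of order 16. -/
theorem inA0_of_fix {R : Subgroup (Equiv.Perm W)}
    (hflag : ∀ i : Fin 512, elP i ∈ R → linN.testBit i.val = true → flagN.testBit i.val = true)
    {g : Equiv.Perm W} (hgR : g ∈ R) (hg : IsGood g) (hB : ∀ v, inB0 v → g v = v) : inA0 g := by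
  have hgl := lin_of_fix hg hB
  have h := chk_spec _ 12 0 c_step0 (g 1).val (Nat.zero_le _) (by simpa using (g 1).isLt)
  simp only [Bool.or_eq_true, Bool.not_eq_true', List.any_eq_true, beq_iff_eq] at h
  obtain ⟨i, hi, hi1⟩ := h.resolve_left fun hc => by
    have := agree_of_fix hg (k := 0) (by norm_num)
      (fun n hn => ptDom_fix hg.add hB 0 (by simp) n hn) 1
    exact Bool.false_ne_true (hc.symm.trans this)
  have hd := c_idx
  simp only [List.all_eq_true, Bool.and_eq_true, decide_eq_true_eq, beq_iff_eq] at hd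
  obtain ⟨⟨⟨hlt, hl⟩, hfix⟩, hfl⟩ := hd i hi
  let F : Fin 512 := ⟨i, hlt⟩
  have hFl : elP F ∈ GL6 := (lin_iff F).1 hl
  have hFB : ∀ v, inB0 v → elP F v = v := fun v hv => by
    obtain ⟨w, hw, h'⟩ := fix_span (elP_good F).add b0Basis (fun e he => by
      exact ⟨⟨e, c_b0lt e he⟩, rfl, Fin.ext (hfix e he)⟩) v.val hv
    exact (Fin.ext hw : w = v) ▸ h'
  have heq : g = elP F := by
    have h1 := eq_one_of_fix (GL6.mul_mem (GL6.inv_mem hFl) hgl)
      (fun v hv => by rw [Equiv.Perm.mul_apply, hB v hv, Equiv.Perm.inv_eq_iff_eq, hFB v hv])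
      (by rw [Equiv.Perm.mul_apply, Equiv.Perm.inv_eq_iff_eq]; exact Fin.ext hi1.symm)
    exact (inv_mul_eq_one.1 h1).symm
  subst heq
  have hf := hflag F hgR hl
  simp only [Bool.or_eq_true, Bool.not_eq_true', beq_iff_eq, List.any_eq_true] at hfl
  rcases hfl with (hfl | hfl) | ⟨a, ha, hai⟩
  · exact absurd hf (by simp [F, hfl])
  · refine Or.inl ?_
    rw [show F = 0 from Fin.ext hfl, elP_zero]
  · have := c_a0flag
    simp only [List.all_eq_true, Bool.and_eq_true, decide_eq_true_eq] at this
    exact Or.inr ⟨⟨a, (this a ha).1.1⟩, ha, congrArg elP (Fin.ext hai.symm)⟩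

theorem c_one : ((spanN b0Basis).countP fun u => oneN.testBit u) = 18 := by
  decide +kernel

theorem c_partners : ((spanN b0Basis).all fun w => !oneN.testBit w ||
    ((spanN b0Basis).countP fun u => oneN.testBit u && oneN.testBit (u ^^^ w)) == 2) = true := by
  decide +kernel

end CfsgLib.LargeFischer45
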