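import Mathlib

/-!
A set of 276 elements in a group of exponent two carrying the triangular graph: two members are
joined when their product is again a member.  The graph is recovered from three counts: 44
neighbours, 36 ordered decompositions of a nontrivial non-member, and four common neighbours of
two non-adjacent members.
-/

set_option autoImplicit false

namespace CfsgLib.Triangular45

open Finset

variable {A : Type*} [CommGroup A] [DecidableEq A]

/-- The hypotheses. -/
structure Hyp (D : Finset A) : Prop where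
  sq : ∀ a : A, a * a = 1
  one : (1 : A) ∉ D
  card : D.card = 276
  deg : ∀ t ∈ D, (D.filter fun u => t * u ∈ D).card = 44
  dec : ∀ v : A, v ≠ 1 → v ∉ D → (D.filter fun u => v * u ∈ D).card = 36
  closed : ∀ w ∈ D, ∀ w' ∈ D, w ≠ w' → w * w' ∉ D →
    ∀ x ∈ D, x * w ∈ D → x * w' ∈ D → x * (w * w') ∈ D
  common : ∀ w ∈ D, ∀ w' ∈ D, w ≠ w' → w * w' ∉ D →
    (D.filter fun x => x * w ∈ D ∧ x * w' ∈ D).card = 4

variable {D : Finset A}

theorem mul_cancel (h : Hyp D) (a b : A) : a * (a * b) = b := by rw [← mul_assoc, h.sq, one_mul]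

theorem mul_cancel' (h : Hyp D) (a b : A) : b * a * a = b := by rw [mul_assoc, h.sq, mul_one]

theorem eq_of_mul_eq_one (h : Hyp D) {a b : A} (e : a * b = 1) : a = b := by
  rw [← mul_cancel h a b, e, mul_one]

theorem ne_of_mem (h : Hyp D) {a b : A} (hab : a * b ∈ D) : a ≠ b := by
  rintro rfl; exact h.one (h.sq a ▸ hab)

theorem ne_one_of_mem (h : Hyp D) {a : A} (ha : a ∈ D) : a ≠ 1 := fun e => h.one (e ▸ ha)

/-- Two non-adjacent members and one common neighbour determine all four. -/
theorem common_eq (h : Hyp D) {w w' x y : A} (hw : w ∈ D) (hw' : w' ∈ D) (hne : w ≠ w')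
    (hn : w * w' ∉ D) (hx : x ∈ D) (hxw : x * w ∈ D) (hxw' : x * w' ∈ D)
    (hy : y ∈ D) (hyw : y * w ∈ D) (hyw' : y * w' ∈ D) :
    y = x ∨ y = x * (w * w') ∨ y = x * w ∨ y = x * w' := by
  classical
  have hv := h.closed w hw w' hw' hne hn x hx hxw hxw'
  have hsub : ({x, x * (w * w'), x * w, x * w'} : Finset A) ⊆
      D.filter fun x => x * w ∈ D ∧ x * w' ∈ D := by
    intro z hz
    simp only [mem_insert, mem_singleton] at hz
    rw [mem_filter]
    rcases hz with rfl | rfl | rfl | rfl
    · exact ⟨hx, hxw, hxw'⟩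
    · refine ⟨hv, ?_, ?_⟩
      · have : x * (w * w') * w = x * w' := by
          rw [mul_assoc, mul_comm w w', mul_cancel' h]
        rwa [this]
      · have : x * (w * w') * w' = x * w := by rw [mul_assoc, mul_cancel' h]
        rwa [this]
    · exact ⟨hxw, by rwa [mul_cancel' h], by rwa [mul_assoc]⟩
    · exact ⟨hxw', by rwa [mul_assoc, mul_comm w'], by rwa [mul_cancel' h]⟩
  have hv1 : w * w' ≠ 1 := fun e => hne (eq_of_mul_eq_one h e)
  have hcard : ({x, x * (w * w'), x * w, x * w'} : Finset A).card = 4 := by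
    have h1 : x ≠ x * (w * w') := fun e => hv1 (mul_eq_left.mp e.symm)
    have h2 : x ≠ x * w := fun e => ne_one_of_mem h hw (mul_eq_left.mp e.symm)
    have h3 : x ≠ x * w' := fun e => ne_one_of_mem h hw' (mul_eq_left.mp e.symm)
    have h4 : x * (w * w') ≠ x * w := fun e =>
      ne_one_of_mem h hw' (mul_eq_left.mp (mul_left_cancel e))
    have h5 : x * (w * w') ≠ x * w' := fun e =>
      ne_one_of_mem h hw (mul_eq_right.mp (mul_left_cancel e))
    have h6 : x * w ≠ x * w' := fun e => hne (mul_left_cancel e)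
    rw [card_insert_of_notMem (by simp only [mem_insert, mem_singleton]; tauto),
      card_insert_of_notMem (by simp only [mem_insert, mem_singleton]; tauto),
      card_insert_of_notMem (by simp only [mem_singleton]; tauto), card_singleton]
  have heq := eq_of_subset_of_card_le hsub (by rw [hcard, h.common w hw w' hw' hne hn])
  have : y ∈ ({x, x * (w * w'), x * w, x * w'} : Finset A) := by
    rw [heq, mem_filter]; exact ⟨hy, hyw, hyw'⟩
  simpa only [mem_insert, mem_singleton] using this

/-- Inside a neighbourhood. -/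
theorem common_nbhd (h : Hyp D) {t w w' b : A} (ht : t ∈ D) (hw : w ∈ D) (hw' : w' ∈ D)
    (hne : w ≠ w') (hn : w * w' ∉ D) (htw : t * w ∈ D) (htw' : t * w' ∈ D)
    (hb : b ∈ D) (htb : t * b ∈ D) (hbw : b * w ∈ D) (hbw' : b * w' ∈ D) :
    b = t * w ∨ b = t * w' := by
  rcases common_eq h hw hw' hne hn ht htw htw' hb hbw hbw' with e | e | e | e
  · exact absurd e.symm (ne_of_mem h htb)
  · rw [e, mul_cancel h] at htb; exact absurd htb hn
  · exact Or.inl e
  · exact Or.inr e

/-- Every member of a neighbourhood has a non-neighbour there. -/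
theorem exists_nonadj (h : Hyp D) {t a : A} (ht : t ∈ D) (ha : a ∈ D) (hta : t * a ∈ D) :
    ∃ c ∈ D, t * c ∈ D ∧ c ≠ a ∧ a * c ∉ D := by
  classical
  have hu : ∃ u ∈ D, u ≠ t ∧ t * u ∉ D := by
    by_contra hno
    push Not at hno
    have : D.erase t ⊆ D.filter fun u => t * u ∈ D := fun u hu =>
      mem_filter.2 ⟨mem_of_mem_erase hu, hno u (mem_of_mem_erase hu) (ne_of_mem_erase hu)⟩
    have := card_le_card this
    rw [h.deg t ht, card_erase_of_mem ht, h.card] at this
    omega
  obtain ⟨u, hu, hut, hn⟩ := hu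
  obtain ⟨x, hx⟩ : (D.filter fun x => x * t ∈ D ∧ x * u ∈ D).Nonempty := by
    rw [← card_pos, h.common t ht u hu (Ne.symm hut) hn]; norm_num
  obtain ⟨hxD, hxt, hxu⟩ := mem_filter.1 hx
  have hxv := h.closed t ht u hu (Ne.symm hut) hn x hxD hxt hxu
  have hv1 : t * u ≠ 1 := fun e => hut (eq_of_mul_eq_one h e).symm
  have hnx : x * (x * (t * u)) ∉ D := by rwa [mul_cancel h]
  have h1 : t * x ∈ D := by rwa [mul_comm]
  have h2 : t * (x * (t * u)) ∈ D := by
    have : t * (x * (t * u)) = x * u := by rw [mul_left_comm, mul_cancel h]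
    rwa [this]
  have hne : x ≠ x * (t * u) := fun e => hv1 (mul_eq_left.mp e.symm)
  by_cases e1 : a = x
  · subst e1; exact ⟨_, hxv, h2, Ne.symm hne, hnx⟩
  by_cases e2 : a = x * (t * u)
  · subst e2; exact ⟨x, hxD, h1, hne, by rwa [mul_comm]⟩
  by_cases h3 : a * x ∈ D
  swap
  · exact ⟨x, hxD, h1, Ne.symm e1, h3⟩
  by_cases h4 : a * (x * (t * u)) ∈ D
  swap
  · exact ⟨_, hxv, h2, Ne.symm e2, h4⟩
  have hxu' : t * (x * u) ∈ D := by rwa [mul_left_comm]
  have hxt' : t * (x * t) ∈ D := by
    have : t * (x * t) = x := by rw [mul_comm x, mul_cancel h]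
    rwa [this]
  have hprod : x * t * (x * u) = t * u := by rw [mul_mul_mul_comm, h.sq, one_mul]
  rcases common_nbhd h ht hxD hxv hne hnx h1 h2 ha hta h3 h4 with e | e
  · refine ⟨x * u, hxu, hxu', ?_, ?_⟩
    · rw [e, mul_comm t]; exact fun e' => hut (mul_left_cancel e')
    · rw [e, mul_comm t, hprod]; exact hn
  · refine ⟨x * t, hxt, hxt', ?_, ?_⟩
    · rw [e, mul_left_comm, mul_cancel h]; exact fun e' => hut (mul_left_cancel e').symm
    · rw [e, mul_left_comm t, mul_cancel h, mul_comm, hprod]; exact hn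

/-- No seven members form a subgroup of order eight minus the identity. -/
theorem no_fano (h : Hyp D) {t a b : A} (ht : t ∈ D) (ha : a ∈ D) (hta : t * a ∈ D)
    (hb : b ∈ D) (htb : t * b ∈ D) (hab : a * b ∈ D) (hne : b ≠ a * t) (h3 : a * t * b ∈ D) :
    False := by
  obtain ⟨c, hc, htc, hca, hac⟩ := exists_nonadj h ht ha hta
  have hca' : c * a ∉ D := by rwa [mul_comm]
  have hv := h.closed a ha c hc (Ne.symm hca) hac t ht hta htc
  have hatc : a * t * c ∈ D := by rwa [mul_comm a t, mul_assoc]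
  by_cases hbc : b * c ∈ D
  · rcases common_nbhd h ht ha hc (Ne.symm hca) hac hta htc hb htb (by rwa [mul_comm]) hbc with
      e | e
    · exact hne (by rw [e, mul_comm])
    · refine hac ?_
      have : a * t * b = a * c := by rw [e, mul_assoc, mul_cancel h]
      rwa [this] at h3
  · have hbne : b ≠ c := fun e => hac (e ▸ hab)
    have hat : a * t ∈ D := by rwa [mul_comm]
    have htat : t * (a * t) ∈ D := by
      have : t * (a * t) = a := by rw [mul_comm a, mul_cancel h]
      rwa [this]
    rcases common_nbhd h ht hb hc hbne hbc htb htc hat htat h3 hatc with e | e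
    · rw [mul_comm a] at e; exact ne_of_mem h hab (mul_left_cancel e)
    · rw [mul_comm a] at e; exact hca (mul_left_cancel e).symm

/-- Adjacent, and not the third point of the line. -/
def Rel (D : Finset A) (t a b : A) : Prop := a = b ∨ (a * b ∈ D ∧ a * b ≠ t)

instance decRel (t a b : A) : Decidable (Rel D t a b) := by unfold Rel; infer_instance

theorem rel_symm {t a b : A} (hr : Rel D t a b) : Rel D t b a := by
  rcases hr with rfl | ⟨h1, h2⟩
  · exact Or.inl rfl
  · exact Or.inr ⟨by rwa [mul_comm], by rwa [mul_comm]⟩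

theorem rel_trans (h : Hyp D) {t a b c : A} (ht : t ∈ D) (ha : a ∈ D) (hb : b ∈ D) (hc : c ∈ D)
    (hta : t * a ∈ D) (htb : t * b ∈ D) (htc : t * c ∈ D)
    (r1 : Rel D t a b) (r2 : Rel D t b c) : Rel D t a c := by
  rcases r1 with rfl | ⟨hab, hab'⟩
  · exact r2
  rcases r2 with rfl | ⟨hbc, hbc'⟩
  · exact Or.inr ⟨hab, hab'⟩
  by_cases hac : a = c
  · exact Or.inl hac
  refine Or.inr ⟨?_, ?_⟩
  · by_contra hn
    rcases common_nbhd h ht ha hc hac hn hta htc hb htb (by rwa [mul_comm]) hbc with e | e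
    · exact hab' (by rw [e, mul_left_comm, h.sq, mul_one])
    · exact hbc' (by rw [e, mul_cancel' h])
  · intro e
    have hc' : c = a * t := by rw [← e, mul_cancel h]
    subst hc'
    exact no_fano h ht ha hta hb htb hab (fun e' => h.one (by rw [e', h.sq] at hbc; exact hbc))
      (by rwa [mul_comm])

/-- The members joined to `t` on the side of `w`, with `t`. -/
def star (D : Finset A) (t w : A) : Finset A :=
  insert t (D.filter fun u => t * u ∈ D ∧ Rel D t w u)

theorem rel_or (h : Hyp D) {t w u : A} (ht : t ∈ D) (hw : w ∈ D) (htw : t * w ∈ D)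
    (hu : u ∈ D) (htu : t * u ∈ D) : Rel D t w u ∨ Rel D t (t * w) u := by
  by_cases e : w = u
  · exact Or.inl (Or.inl e)
  by_cases hd : w * u ∈ D
  · by_cases e' : w * u = t
    · exact Or.inr (Or.inl (by rw [← e', mul_comm w, mul_cancel' h]))
    · exact Or.inl (Or.inr ⟨hd, e'⟩)
  · refine Or.inr (Or.inr ⟨?_, ?_⟩)
    · rw [mul_assoc]; exact h.closed w hw u hu e hd t ht htw htu
    · rw [mul_assoc]; exact fun e' => e (eq_of_mul_eq_one h (mul_eq_left.mp e'))

theorem not_rel (h : Hyp D) {t w : A} (ht : t ∈ D) : ¬ Rel D t w (t * w) := by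
  rintro (e | ⟨-, e⟩)
  · exact ne_one_of_mem h ht (mul_eq_right.mp e.symm)
  · exact e (by rw [mul_comm t, mul_cancel h])

theorem card_star (h : Hyp D) {t w : A} (ht : t ∈ D) (hw : w ∈ D) (htw : t * w ∈ D) :
    (star D t w).card = 23 := by
  classical
  set N := D.filter fun u => t * u ∈ D with hN
  set P := N.filter (fun u => Rel D t w u) with hP
  set P' := N.filter (fun u => Rel D t (t * w) u) with hP'
  have hmap : ∀ u ∈ N, t * u ∈ N := by
    intro u hu
    obtain ⟨hu, htu⟩ := mem_filter.1 hu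
    exact mem_filter.2 ⟨htu, by rwa [mul_cancel h]⟩
  have hrel : ∀ a b, Rel D t a b → Rel D t (t * a) (t * b) := by
    rintro a b (rfl | hh)
    · exact Or.inl rfl
    · exact Or.inr (by rwa [mul_mul_mul_comm, h.sq, one_mul])
  have heq : P'.card = P.card := by
    refine card_bij' (fun u _ => t * u) (fun u _ => t * u) ?_ ?_ ?_ ?_
    · intro u hu
      obtain ⟨huN, hr⟩ := mem_filter.1 hu
      refine mem_filter.2 ⟨hmap u huN, ?_⟩
      have := hrel _ _ hr
      rwa [mul_cancel h] at this
    · intro u hu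
      obtain ⟨huN, hr⟩ := mem_filter.1 hu
      exact mem_filter.2 ⟨hmap u huN, hrel _ _ hr⟩
    · intro u _; exact mul_cancel h t u
    · intro u _; exact mul_cancel h t u
  have hdis : Disjoint P P' := by
    rw [disjoint_left]
    intro u hu hu'
    obtain ⟨huN, hr⟩ := mem_filter.1 hu
    obtain ⟨hu, htu⟩ := mem_filter.1 huN
    exact not_rel h ht (rel_trans h ht hw hu htw htw htu (by rwa [mul_cancel h]) hr
      (rel_symm (mem_filter.1 hu').2))
  have hun : P ∪ P' = N := by
    ext u
    simp only [hP, hP', mem_union, mem_filter]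
    refine ⟨by rintro (⟨a, -⟩ | ⟨a, -⟩) <;> exact a, fun huN => ?_⟩
    obtain ⟨hu, htu⟩ := mem_filter.1 huN
    rcases rel_or h ht hw htw hu htu with r | r
    · exact Or.inl ⟨huN, r⟩
    · exact Or.inr ⟨huN, r⟩
  have := card_union_of_disjoint hdis
  rw [hun, heq, hN, h.deg t ht] at this
  have hst : star D t w = insert t P := by rw [star, hP, hN, filter_filter]
  rw [hst, card_insert_of_notMem]
  · omega
  · intro hu
    exact ne_of_mem h (mem_filter.1 (mem_filter.1 hu).1).2 rfl

/-- A point of the underlying set. -/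
structure IsStar (D : Finset A) (K : Finset A) : Prop where
  sub : K ⊆ D
  card : K.card = 23
  mul : ∀ a ∈ K, ∀ b ∈ K, a ≠ b → a * b ∈ D ∧ a * b ∉ K

theorem isStar_star (h : Hyp D) {t w : A} (ht : t ∈ D) (hw : w ∈ D) (htw : t * w ∈ D) :
    IsStar D (star D t w) := by
  have hmem : ∀ a, a ∈ star D t w ↔ a = t ∨ (a ∈ D ∧ t * a ∈ D ∧ Rel D t w a) := fun a => by
    simp only [star, mem_insert, mem_filter]
  have key : ∀ a, a ∈ D → t * a ∈ D → Rel D t w a → t * a ∉ star D t w := by
    intro a ha hta hr hin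
    rcases (hmem _).1 hin with e | ⟨-, -, r⟩
    · exact ne_one_of_mem h ha (mul_eq_left.mp e)
    · exact not_rel h ht (rel_trans h ht ha hw hta hta htw (by rwa [mul_cancel h]) (rel_symm hr) r)
  refine ⟨fun a ha => ((hmem a).1 ha).elim (fun e => e ▸ ht) And.left, card_star h ht hw htw,
    fun a ha b hb hne => ?_⟩
  rcases (hmem a).1 ha with rfl | ⟨ha', hta, hra⟩
  · rcases (hmem b).1 hb with rfl | ⟨hb', htb, hrb⟩
    · exact absurd rfl hne
    · exact ⟨htb, key b hb' htb hrb⟩
  rcases (hmem b).1 hb with rfl | ⟨hb', htb, hrb⟩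
  · rw [mul_comm]; exact ⟨hta, key a ha' hta hra⟩
  rcases rel_trans h ht ha' hw hb' hta htw htb (rel_symm hra) hrb with e | ⟨hd, hd'⟩
  · exact absurd e hne
  refine ⟨hd, fun hin => ?_⟩
  rcases (hmem _).1 hin with e | ⟨-, htab, -⟩
  · exact hd' e
  · exact no_fano h ht ha' hta hb' htb hd
      (fun e => hd' (by rw [e, mul_cancel h])) (by rwa [mul_comm a t, mul_assoc])

theorem mem_star {t w : A} (hw : w ∈ D) (htw : t * w ∈ D) :
    t ∈ star D t w ∧ w ∈ star D t w :=
  ⟨mem_insert_self _ _, mem_insert_of_mem (mem_filter.2 ⟨hw, htw, Or.inl rfl⟩)⟩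

theorem eq_star (h : Hyp D) {K : Finset A} (hK : IsStar D K) {t w : A} (ht : t ∈ K) (hw : w ∈ K)
    (hne : t ≠ w) : K = star D t w := by
  have htw := (hK.mul t ht w hw hne).1
  refine eq_of_subset_of_card_le (fun u hu => ?_)
    (by rw [card_star h (hK.sub ht) (hK.sub hw) htw, hK.card])
  by_cases e : u = t
  · exact e ▸ mem_insert_self _ _
  refine mem_insert_of_mem (mem_filter.2 ⟨hK.sub hu, (hK.mul t ht u hu (Ne.symm e)).1, ?_⟩)
  by_cases e' : w = u
  · exact Or.inl e'
  · exact Or.inr ⟨(hK.mul w hw u hu e').1, fun e'' => (hK.mul w hw u hu e').2 (e''.symm ▸ ht)⟩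

/-- The two stars through a member. -/
theorem eq_or_eq (h : Hyp D) {t w : A} (hw : w ∈ D) (htw : t * w ∈ D) {K : Finset A}
    (hK : IsStar D K) (ht : t ∈ K) : K = star D t w ∨ K = star D t (t * w) := by
  obtain ⟨u, huK, hut⟩ := exists_mem_ne (by rw [hK.card]; norm_num) t
  have htD := hK.sub ht
  have hu := hK.sub huK
  have htu := (hK.mul t ht u huK (Ne.symm hut)).1
  rw [eq_star h hK ht huK (Ne.symm hut)]
  have same : ∀ v, v ∈ D → t * v ∈ D → Rel D t v u → star D t u = star D t v := by
    intro v hv htv hr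
    refine (eq_star h (isStar_star h htD hv htv) (mem_insert_self _ _) ?_ (Ne.symm hut)).symm
    exact mem_insert_of_mem (mem_filter.2 ⟨hu, htu, hr⟩)
  rcases rel_or h htD hw htw hu htu with r | r
  · exact Or.inl (same w hw htw r)
  · exact Or.inr (same _ htw (by rwa [mul_cancel h]) r)

end CfsgLib.Triangular45
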